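import Cfsg.Agent.Lib.FusionExt.PrimeIndex
import Cfsg.Agent.Lib.Fusion.KSystem
import Cfsg.Prelude.Def_TwoFusion

/-!
# Strongly closed direct factors (helper92)
-/

set_option autoImplicit false

namespace Cfsg.Agent.Lib.FusionExt.DirectFactor

open Cfsg Cfsg.FusionSystem Cfsg.Agent.Lib.Fusion.Basic Cfsg.Agent.Lib.FusionExt.Basic
open Cfsg.Agent.Lib.FusionExt.Normal Cfsg.Agent.Lib.FusionExt.Invariant Cfsg.Agent.Lib.Fusion.KSystem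

variable {Ω : Type*} [Group Ω] {S S₁ S₂ : Subgroup Ω} [Finite S] {p : ℕ} [Fact p.Prime]

theorem extender_mono {A B P : Subgroup Ω} (h : A ≤ B) (φ : P →* Ω) : extender A P φ ≤ extender B P φ := by
  intro g hg
  obtain ⟨h1, h2, k, hk, hv⟩ := (mem_extender_iff φ).1 hg
  exact (mem_extender_iff φ).2 ⟨h h1, h2, k, h hk, hv⟩

/-- A strongly closed subgroup `S₁` with `S = S₁ C_S(S₁)`: the full subsystem over `S₁` is saturated. -/
theorem isSaturated_of_factor (hS : IsPGroup p S) {F : FusionSystem S} (hF : F.IsSaturated p)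
    (hsc : F.StronglyClosed S₁)
    (hc : ∀ s ∈ S, ∃ s₁ ∈ S₁, ∃ s₂ ∈ Subgroup.centralizer (S₁ : Set Ω), s = s₁ * s₂)
    (R : FusionSystem S₁) (hR : ∀ P : Subgroup Ω, P ≤ S₁ → R.Hom P = F.Hom P) : R.IsSaturated p := by
  intro P hP
  obtain ⟨Q, hconj, hfa, hrec⟩ := hF P (hP.trans hsc.1)
  have hS₁fin : Finite S₁ := finite_of_le hsc.1
  have hS₁p : IsPGroup p S₁ := hS.to_le hsc.1
  obtain ⟨φ, hφ, hr⟩ := hconj
  have hQ₁ : Q ≤ S₁ := by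
    rw [← hr]
    rintro _ ⟨x, rfl⟩
    exact hsc.2 P hP φ hφ x
  have hA : R.autGroup Q = F.autGroup Q := by
    ext α
    rw [mem_autGroup_iff R hQ₁, mem_autGroup_iff F (hQ₁.trans hsc.1), hR Q hQ₁]
  have hU : autInducedBy S Q = autInducedBy S₁ Q := by
    apply le_antisymm
    · intro α hα
      obtain ⟨g, hg, hgα⟩ := (mem_autInducedBy_iff S Q α).1 hα
      obtain ⟨a, ha, b, hb, rfl⟩ := hc g hg
      refine (mem_autInducedBy_iff S₁ Q α).2 ⟨a, ha, fun x => ?_⟩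
      rw [hgα]
      have h1 : (x : Ω) * b = b * x := Subgroup.mem_centralizer_iff.1 hb x (hQ₁ x.2)
      calc a * b * (x : Ω) * (a * b)⁻¹ = a * (b * x) * b⁻¹ * a⁻¹ := by group
        _ = a * (x * b) * b⁻¹ * a⁻¹ := by rw [h1]
        _ = a * x * a⁻¹ := by group
    · exact autInducedBy_mono Q hsc.1
  refine ⟨Q, ⟨φ, by rw [hR P hP]; exact hφ, hr⟩, ?_, hQ₁, fun P' φ' hφ' hr' => ?_⟩
  · refine (isFullyAutomized_iff R hS₁p hQ₁).2 fun R' hp hle hge => ?_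
    rw [← hU] at hge ⊢
    exact (isFullyAutomized_iff F hS (hQ₁.trans hsc.1)).1 hfa R' hp (hA ▸ hle) hge
  · have hP' : P' ≤ S₁ := le_of_mem R hφ'
    have hφ'F : φ' ∈ F.Hom P' := by
      rw [← hR P' hP']
      exact hφ'
    obtain ⟨ψ, hψ, hext⟩ := hrec.2 P' φ' hφ'F hr'
    have hle := extender_mono hsc.1 φ'
    refine ⟨ψ.comp (Subgroup.inclusion hle), ?_, fun x hx hN => hext x hx (hle hN)⟩
    rw [hR _ (extender_le_left φ')]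
    exact restrict_mem F hle hψ

theorem isFullyCentralized_of_stronglyClosed {F : FusionSystem S} (h : F.StronglyClosed S₂) :
    F.IsFullyCentralized S₂ := by
  refine ⟨h.1, fun Q hconj => ?_⟩
  obtain ⟨φ, hφ, hr⟩ := hconj
  have hfin : Finite S₂ := finite_of_le h.1
  have hle : Q ≤ S₂ := by
    rw [← hr]
    rintro _ ⟨x, rfl⟩
    exact h.2 S₂ le_rfl φ hφ x
  have hcard : Nat.card S₂ ≤ Nat.card Q := by
    rw [← hr, card_range F hφ]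
  rw [Subgroup.eq_of_le_of_card_ge hle hcard]

/-- A map of `F` on `Q`, whose source and image are centralized by the strongly closed `S₂`, extends to `Q S₂`,
with `S₂` going onto itself. -/
theorem ext_sup {F : FusionSystem S} (hF : F.IsSaturated p) (h₂ : F.StronglyClosed S₂) {Q : Subgroup Ω}
    (hQ : Q ≤ S) {ψ : Q →* Ω} (hψ : ψ ∈ F.Hom Q) (hc1 : ∀ a ∈ Q, ∀ b ∈ S₂, a * b = b * a)
    (hc2 : ∀ x : Q, ∀ b ∈ S₂, ψ x * b = b * ψ x) :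
    ∃ ξ ∈ F.Hom (Q ⊔ S₂), ∀ x : Q, ξ ⟨x, Subgroup.mem_sup_left x.2⟩ = ψ x := by
  set Q' := ψ.range with hQ'
  have hQ'S : Q' ≤ S := range_le F hψ
  obtain ⟨Q'', ⟨ρ, hρ, hρr⟩, -, hrec⟩ := hF Q' hQ'S
  have hv : ∀ x : Q, ψ x ∈ Q' := fun x => ⟨x, rfl⟩
  let ρ₁ : Q →* Ω := ρ.comp (ψ.codRestrict Q' hv)
  have hρ₁ : ρ₁ ∈ F.Hom Q := F.comp_mem hψ hρ hv
  have hρ₁r : ρ₁.range = Q'' := by
    rw [← hρr]
    apply le_antisymm
    · rintro _ ⟨x, rfl⟩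
      exact ⟨_, rfl⟩
    · rintro _ ⟨⟨_, x, rfl⟩, rfl⟩
      exact ⟨x, rfl⟩
  have hcent : ∀ {A : Subgroup Ω} (φ : A →* Ω), (∀ a ∈ A, ∀ b ∈ S₂, a * b = b * a) → S₂ ≤ extender S A φ := by
    intro A φ hAc b hb
    refine centralizerIn_le_extender φ (Subgroup.mem_inf.2 ⟨h₂.1 hb, ?_⟩)
    rw [Subgroup.mem_centralizer_iff]
    intro a ha
    exact hAc a ha b hb
  have hQ'c : ∀ a ∈ Q', ∀ b ∈ S₂, a * b = b * a := by
    rintro _ ⟨x, rfl⟩ b hb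
    exact hc2 x b hb
  have he1 : Q ⊔ S₂ ≤ extender S Q ρ₁ := sup_le (le_extender F hρ₁) (hcent _ hc1)
  have he2 : Q' ⊔ S₂ ≤ extender S Q' ρ := sup_le (le_extender F hρ) (hcent _ hQ'c)
  obtain ⟨ξ₁, hξ₁, hξ₁v⟩ := IsReceptive.exists_extension F hrec hρ₁ hρ₁r he1 le_sup_left
  obtain ⟨ξ₂, hξ₂, hξ₂v⟩ := IsReceptive.exists_extension F hrec hρ hρr he2 le_sup_left
  -- the range of `ξ₂`
  have hS₂fin : Finite S₂ := finite_of_le h₂.1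
  have hS₂r : S₂ ≤ ξ₂.range := by
    intro s hs
    let f : S₂ → S₂ := fun b => ⟨ξ₂ ⟨b, Subgroup.mem_sup_right b.2⟩,
      sc_map_mem' F h₂ hξ₂ ⟨b, Subgroup.mem_sup_right b.2⟩ b.2⟩
    have hfinj : Function.Injective f := by
      intro a b hab
      have h1 : ξ₂ ⟨a, Subgroup.mem_sup_right a.2⟩ = ξ₂ ⟨b, Subgroup.mem_sup_right b.2⟩ := congrArg Subtype.val hab
      have h2 := F.injective_of_mem hξ₂ h1
      exact Subtype.ext (congrArg (fun z : ↥(Q' ⊔ S₂) => (z : Ω)) h2)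
    obtain ⟨b, hb⟩ := Finite.surjective_of_injective hfinj ⟨s, hs⟩
    exact ⟨_, congrArg Subtype.val hb⟩
  have hQ''r : Q'' ≤ ξ₂.range := by
    rw [← hρr]
    rintro _ ⟨x, rfl⟩
    exact ⟨⟨x, Subgroup.mem_sup_left x.2⟩, hξ₂v x⟩
  have hle : Q'' ⊔ S₂ ≤ ξ₂.range := sup_le hQ''r hS₂r
  have hrle : ξ₂.range ≤ Q'' ⊔ S₂ := by
    rintro _ ⟨x, rfl⟩
    revert x
    apply mem_of_sup
    · intro a ha
      have := hξ₂v ⟨a, ha⟩
      rw [show (⟨a, Subgroup.mem_sup_left ha⟩ : ↥(Q' ⊔ S₂)) = ⟨((⟨a, ha⟩ : Q') : Ω), Subgroup.mem_sup_left ha⟩ from rfl, this]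
      apply Subgroup.mem_sup_left
      rw [← hρr]
      exact ⟨_, rfl⟩
    · intro b hb
      exact Subgroup.mem_sup_right (sc_map_mem' F h₂ hξ₂ ⟨b, Subgroup.mem_sup_right hb⟩ hb)
  have hreq : ξ₂.range = Q'' ⊔ S₂ := le_antisymm hrle hle
  obtain ⟨ι, hι, hιv, hιξ, -, -⟩ := exists_inv F hξ₂ hreq
  have hξ₁val : ∀ x : ↥(Q ⊔ S₂), ξ₁ x ∈ Q'' ⊔ S₂ := by
    apply mem_of_sup
    · intro a ha
      have := hξ₁v ⟨a, ha⟩
      rw [show (⟨a, Subgroup.mem_sup_left ha⟩ : ↥(Q ⊔ S₂)) = ⟨((⟨a, ha⟩ : Q) : Ω), Subgroup.mem_sup_left ha⟩ from rfl, this]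
      apply Subgroup.mem_sup_left
      rw [← hρ₁r]
      exact ⟨_, rfl⟩
    · intro b hb
      exact Subgroup.mem_sup_right (sc_map_mem' F h₂ hξ₁ ⟨b, Subgroup.mem_sup_right hb⟩ hb)
  refine ⟨ι.comp (ξ₁.codRestrict _ hξ₁val), F.comp_mem hξ₁ hι hξ₁val, fun x => ?_⟩
  have e1 : ξ₁ ⟨x, Subgroup.mem_sup_left x.2⟩ = ρ ⟨ψ x, hv x⟩ := hξ₁v x
  have e2 : ξ₂ ⟨ψ x, Subgroup.mem_sup_left (hv x)⟩ = ρ ⟨ψ x, hv x⟩ := hξ₂v ⟨ψ x, hv x⟩
  have e3 := hιξ ⟨ψ x, Subgroup.mem_sup_left (hv x)⟩ (by rw [← hreq]; exact ⟨_, rfl⟩)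
  show ι ⟨ξ₁ ⟨x, Subgroup.mem_sup_left x.2⟩, _⟩ = ψ x
  have e4 : (⟨ξ₁ ⟨x, Subgroup.mem_sup_left x.2⟩, hξ₁val _⟩ : ↥(Q'' ⊔ S₂)) =
      ⟨ξ₂ ⟨ψ x, Subgroup.mem_sup_left (hv x)⟩, by rw [← hreq]; exact ⟨_, rfl⟩⟩ := Subtype.ext (e1.trans e2.symm)
  rw [e4, e3]

section main

variable (hS : IsPGroup p S) (F : FusionSystem S) (hF : F.IsSaturated p) (S₁ S₂ : Subgroup Ω)
    (hprod : IsInternalDirectProduct S₁ S₂ S) (h₁ : F.StronglyClosed S₁) (h₂ : F.StronglyClosed S₂)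
    (R R' : FusionSystem S₁) (hR : ∀ P : Subgroup Ω, P ≤ S₁ → R.Hom P = F.Hom P)
    (hR' : ∀ P : Subgroup Ω, P ≤ S₁ → R'.Hom P = F.centralizerHom S₂ P)

include hprod in
theorem exists_decomp {s : Ω} (hs : s ∈ S) : ∃ a ∈ S₁, ∃ b ∈ S₂, s = a * b := by
  obtain ⟨hS₁S, hS₂S, hcomm, hinf, hsup⟩ := hprod
  have hN : S₁ ≤ Subgroup.normalizer (S₂ : Set Ω) := by
    intro a ha
    rw [Subgroup.mem_normalizer_iff]
    intro x
    have e : ∀ y ∈ S₂, a * y * a⁻¹ = y := fun y hy => by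
      rw [hcomm a ha y hy]
      group
    constructor
    · intro hx
      rw [e x hx]
      exact hx
    · intro hx
      have hcx : ∀ y ∈ S₂, a⁻¹ * y * a = y := fun y hy => by
        calc a⁻¹ * y * a = a⁻¹ * (y * a) := by group
          _ = a⁻¹ * (a * y) := by rw [hcomm a ha y hy]
          _ = y := by group
      have := hcx _ hx
      have e2 : a⁻¹ * (a * x * a⁻¹) * a = x := by group
      rw [e2] at this
      rw [this]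
      exact hx
  rw [← hsup] at hs
  exact exists_mul_of_mem_sup' hN hs

include hprod h₁ h₂ hR' hS hF in
theorem strongInv_main : StrongInv F R' := by
  obtain ⟨hS₁S, hS₂S, hcomm, hinf, hsup⟩ := id hprod
  intro P Q hPQ hQ₁ φ hφ hφQ ψ hψ
  have hP₁ : P ≤ S₁ := hPQ.trans hQ₁
  rw [hR' P hP₁] at hφ
  obtain ⟨-, -, -, φh, hφh, hφhP, hφhS⟩ := hφ
  have hψS₁ : ∀ x : Q, ψ x ∈ S₁ := fun x => h₁.2 Q hQ₁ ψ hψ x
  obtain ⟨ξ, hξ, hξv⟩ := ext_sup hF h₂ (hQ₁.trans hS₁S) hψ (fun a ha b hb => hcomm a (hQ₁ ha) b hb)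
    (fun x b hb => hcomm _ (hψS₁ x) b hb)
  set P₁ : Subgroup Ω := (P.subgroupOf Q).map ψ with hP₁d
  have hP₁S₁ : P₁ ≤ S₁ := by
    rintro _ ⟨x, -, rfl⟩
    exact hψS₁ x
  have hle : P ⊔ S₂ ≤ Q ⊔ S₂ := sup_le_sup_right hPQ S₂
  have hξP := restrict_mem F hle hξ
  set ξ₀ := ξ.comp (Subgroup.inclusion hle) with hξ₀
  have hξ₀P : ∀ x : P, ξ₀ ⟨x, Subgroup.mem_sup_left x.2⟩ = ψ ⟨x, hPQ x.2⟩ := fun x => hξv ⟨x, hPQ x.2⟩
  have hξ₀r : ξ₀.range = P₁ ⊔ S₂ := by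
    apply le_antisymm
    · rintro _ ⟨x, rfl⟩
      revert x
      apply mem_of_sup
      · intro a ha
        rw [hξ₀P ⟨a, ha⟩]
        exact Subgroup.mem_sup_left ⟨⟨a, hPQ ha⟩, ha, rfl⟩
      · intro b hb
        exact Subgroup.mem_sup_right (sc_map_mem' F h₂ hξP ⟨b, Subgroup.mem_sup_right hb⟩ hb)
    · refine sup_le ?_ ?_
      · rintro _ ⟨x, hx, rfl⟩
        exact ⟨⟨x, Subgroup.mem_sup_left hx⟩, hξ₀P ⟨x, hx⟩⟩
      · intro s hs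
        have hS₂fin : Finite S₂ := finite_of_le h₂.1
        let f : S₂ → S₂ := fun b => ⟨ξ₀ ⟨b, Subgroup.mem_sup_right b.2⟩,
          sc_map_mem' F h₂ hξP ⟨b, Subgroup.mem_sup_right b.2⟩ b.2⟩
        have hfinj : Function.Injective f := by
          intro a b hab
          have h1 : ξ₀ ⟨a, Subgroup.mem_sup_right a.2⟩ = ξ₀ ⟨b, Subgroup.mem_sup_right b.2⟩ := congrArg Subtype.val hab
          have h2 := F.injective_of_mem hξP h1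
          exact Subtype.ext (congrArg (fun z : ↥(P ⊔ S₂) => (z : Ω)) h2)
        obtain ⟨b, hb⟩ := Finite.surjective_of_injective hfinj ⟨s, hs⟩
        exact ⟨_, congrArg Subtype.val hb⟩
  obtain ⟨ι, hι, hιv, hιξ, hξι, -⟩ := exists_inv F hξP hξ₀r
  -- `φh` has values in `Q ⊔ S₂`
  have hφhval : ∀ x : ↥(P ⊔ S₂), φh x ∈ Q ⊔ S₂ := by
    apply mem_of_sup
    · intro a ha
      have := hφhP ⟨a, ha⟩
      have e : (⟨a, Subgroup.mem_sup_left ha⟩ : ↥(P ⊔ S₂)) = Subgroup.inclusion le_sup_left ⟨a, ha⟩ := rfl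
      rw [e, this]
      exact Subgroup.mem_sup_left (hφQ ⟨a, ha⟩)
    · intro b hb
      have := hφhS ⟨b, hb⟩
      have e : (⟨b, Subgroup.mem_sup_right hb⟩ : ↥(P ⊔ S₂)) = Subgroup.inclusion le_sup_right ⟨b, hb⟩ := rfl
      rw [e, this]
      exact Subgroup.mem_sup_right hb
  have h3 : φh.comp (Subgroup.inclusion (le_refl _)) ∈ F.Hom (P ⊔ S₂) := restrict_mem F le_rfl hφh
  let χ₁ : ↥(P ⊔ S₂) →* Ω := ξ.comp (φh.codRestrict _ hφhval)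
  have hχ₁ : χ₁ ∈ F.Hom (P ⊔ S₂) := F.comp_mem hφh hξ hφhval
  let χh : ↥(P₁ ⊔ S₂) →* Ω := χ₁.comp (ι.codRestrict _ hιv)
  have hχh : χh ∈ F.Hom (P₁ ⊔ S₂) := F.comp_mem hι hχ₁ hιv
  have hP₁le : P₁ ≤ P₁ ⊔ S₂ := le_sup_left
  -- values of `χh`
  have hιψ : ∀ x : P, (⟨ψ ⟨x, hPQ x.2⟩, Subgroup.mem_sup_left ⟨⟨x, hPQ x.2⟩, x.2, rfl⟩⟩ : ↥(P₁ ⊔ S₂)) =
      ⟨ξ₀ ⟨x, Subgroup.mem_sup_left x.2⟩, by rw [← hξ₀r]; exact ⟨_, rfl⟩⟩ := fun x => Subtype.ext (hξ₀P x).symm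
  have hχhP : ∀ x : P, χh ⟨ψ ⟨x, hPQ x.2⟩, Subgroup.mem_sup_left ⟨⟨x, hPQ x.2⟩, x.2, rfl⟩⟩ = ψ ⟨φ x, hφQ x⟩ := by
    intro x
    rw [hιψ x]
    show χ₁ ⟨ι ⟨ξ₀ ⟨x, Subgroup.mem_sup_left x.2⟩, _⟩, _⟩ = _
    have e1 := hιξ ⟨x, Subgroup.mem_sup_left x.2⟩ (by rw [← hξ₀r]; exact ⟨_, rfl⟩)
    have e2 : (⟨ι ⟨ξ₀ ⟨x, Subgroup.mem_sup_left x.2⟩, by rw [← hξ₀r]; exact ⟨_, rfl⟩⟩,
        hιv _⟩ : ↥(P ⊔ S₂)) = ⟨x, Subgroup.mem_sup_left x.2⟩ := Subtype.ext e1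
    rw [e2]
    show ξ ⟨φh ⟨x, Subgroup.mem_sup_left x.2⟩, _⟩ = _
    have e3 : φh ⟨x, Subgroup.mem_sup_left x.2⟩ = φ x := hφhP x
    have e4 : (⟨φh ⟨x, Subgroup.mem_sup_left x.2⟩, hφhval _⟩ : ↥(Q ⊔ S₂)) =
        ⟨((⟨φ x, hφQ x⟩ : Q) : Ω), Subgroup.mem_sup_left (hφQ x)⟩ := Subtype.ext e3
    rw [e4]
    exact hξv ⟨φ x, hφQ x⟩
  have hχhS : ∀ s : S₂, χh ⟨s, Subgroup.mem_sup_right s.2⟩ = s := by
    intro s
    have hs' : (s : Ω) ∈ ξ₀.range := by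
      rw [hξ₀r]
      exact Subgroup.mem_sup_right s.2
    have hιs : ι ⟨s, Subgroup.mem_sup_right s.2⟩ ∈ S₂ := by
      -- `ι` sends `S₂` into `S₂`
      exact sc_map_mem' F h₂ hι ⟨s, Subgroup.mem_sup_right s.2⟩ s.2
    show χ₁ ⟨ι ⟨s, Subgroup.mem_sup_right s.2⟩, _⟩ = _
    have e5 := hφhS ⟨_, hιs⟩
    show ξ ⟨φh ⟨ι ⟨s, Subgroup.mem_sup_right s.2⟩, _⟩, _⟩ = _
    have e6 : φh ⟨ι ⟨s, Subgroup.mem_sup_right s.2⟩, hιv _⟩ = ι ⟨s, Subgroup.mem_sup_right s.2⟩ := e5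
    have e7 : (⟨φh ⟨ι ⟨s, Subgroup.mem_sup_right s.2⟩, hιv _⟩, hφhval _⟩ : ↥(Q ⊔ S₂)) =
        Subgroup.inclusion hle ⟨ι ⟨s, Subgroup.mem_sup_right s.2⟩, hιv _⟩ := Subtype.ext e6
    rw [e7]
    exact hξι ⟨s, Subgroup.mem_sup_right s.2⟩ (hιv _)
  refine ⟨χh.comp (Subgroup.inclusion hP₁le), ?_, fun x hx => ?_⟩
  · rw [hR' _ hP₁S₁]
    have hcent : ∀ {a : Ω}, a ∈ S₁ → a ∈ centralizerIn S S₂ := by
      intro a ha
      refine Subgroup.mem_inf.2 ⟨hS₁S ha, ?_⟩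
      rw [Subgroup.mem_centralizer_iff]
      intro b hb
      exact (hcomm a ha b hb).symm
    refine ⟨restrict_mem F hP₁le hχh, fun y hy => hcent (hP₁S₁ hy), ?_, χh, hχh, fun x => rfl, fun s => hχhS s⟩
    rintro ⟨_, ⟨x, hx, rfl⟩⟩
    have hxP : (x : Ω) ∈ P := hx
    have := hχhP ⟨x, hxP⟩
    show χh ⟨ψ x, _⟩ ∈ _
    have e : (⟨ψ x, hP₁le ⟨x, hx, rfl⟩⟩ : ↥(P₁ ⊔ S₂)) =
        ⟨ψ ⟨x, hPQ hxP⟩, Subgroup.mem_sup_left ⟨⟨x, hPQ hxP⟩, hxP, rfl⟩⟩ := rfl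
    rw [e, this]
    exact hcent (hψS₁ _)
  · exact hχhP x

end main

theorem aut_center {A : Subgroup Ω} (α : MulAut A) {a : A} (ha : (a : Ω) ∈ Subgroup.centralizer (A : Set Ω)) :
    ((α a : A) : Ω) ∈ Subgroup.centralizer (A : Set Ω) := by
  rw [Subgroup.mem_centralizer_iff] at ha ⊢
  intro y hy
  have h1 : α (α⁻¹ ⟨y, hy⟩) = ⟨y, hy⟩ := by simp
  have h2 : (α⁻¹ ⟨y, hy⟩ : A) * a = a * α⁻¹ ⟨y, hy⟩ := Subtype.ext (ha _ (α⁻¹ ⟨y, hy⟩).2)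
  have h3 := congrArg α h2
  rw [map_mul, map_mul, h1] at h3
  exact congrArg Subtype.val h3

section main2

variable (hS : IsPGroup p S) (F : FusionSystem S) (hF : F.IsSaturated p) (S₁ S₂ : Subgroup Ω)
    (hprod : IsInternalDirectProduct S₁ S₂ S) (h₁ : F.StronglyClosed S₁) (h₂ : F.StronglyClosed S₂)
    (R R' : FusionSystem S₁) (hR : ∀ P : Subgroup Ω, P ≤ S₁ → R.Hom P = F.Hom P)
    (hR' : ∀ P : Subgroup Ω, P ≤ S₁ → R'.Hom P = F.centralizerHom S₂ P)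

include hS hF hprod h₁ h₂ hR hR' in
/-- **S5130**. -/
theorem main : R.IsSaturated p ∧ R'.IsSaturated p ∧ R'.IsNormalIn F p ∧ R'.IsNormalIn R p ∧
    R.IsWeaklyNormalIn F p := by
  obtain ⟨hS₁S, hS₂S, hcomm, hinf, hsup⟩ := id hprod
  have hS₁p : IsPGroup p S₁ := hS.to_le hS₁S
  haveI hS₁fin : Finite S₁ := finite_of_le hS₁S
  have hcent₂ : ∀ b ∈ S₂, b ∈ Subgroup.centralizer (S₁ : Set Ω) := by
    intro b hb
    rw [Subgroup.mem_centralizer_iff]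
    intro a ha
    exact hcomm a ha b hb
  have hc : ∀ s ∈ S, ∃ s₁ ∈ S₁, ∃ s₂ ∈ Subgroup.centralizer (S₁ : Set Ω), s = s₁ * s₂ := by
    intro s hs
    obtain ⟨a, ha, b, hb, e⟩ := exists_decomp S₁ S₂ hprod hs
    exact ⟨a, ha, b, hcent₂ b hb, e⟩
  have hRs : R.IsSaturated p := isSaturated_of_factor hS hF h₁ hc R hR
  -- the centralizer system
  let F' := centralizerSystem F S₂ hS₂S
  have hF' : F'.IsSaturated p :=
    isSaturated_centralizerSystem hS F hF (isFullyCentralized_of_stronglyClosed h₂) F' (fun P => rfl)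
  have hC : centralizerIn S S₂ ≤ S := inf_le_left
  haveI : Finite (centralizerIn S S₂) := finite_of_le hC
  have hsc' : F'.StronglyClosed S₁ := by
    refine ⟨fun a ha => Subgroup.mem_inf.2 ⟨hS₁S ha, ?_⟩, fun Rr hRr φ hφ x => h₁.2 Rr hRr φ hφ.1 x⟩
    rw [Subgroup.mem_centralizer_iff]
    intro b hb
    exact (hcomm a ha b hb).symm
  have hR's : R'.IsSaturated p := isSaturated_of_factor (hS.to_le hC) hF' hsc' (fun s hs => hc s hs.1) R'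
    (fun P hP => hR' P hP)
  have hsub' : R'.IsSubsystemOf F := by
    intro P φ hφ
    have hP := Cfsg.Agent.Lib.Fusion.Basic.le_of_mem R' hφ
    rw [hR' P hP] at hφ
    exact hφ.1
  have hsub : R.IsSubsystemOf F := by
    intro P φ hφ
    have hP := Cfsg.Agent.Lib.Fusion.Basic.le_of_mem R hφ
    rw [hR P hP] at hφ
    exact hφ
  have hSI : StrongInv F R' := strongInv_main hS F hF S₁ S₂ hprod h₁ h₂ R' hR'
  have hinv : R'.IsInvariantIn F := (isInvariantIn_iff hS hF hsub' h₁).2 hSI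
  have hRsc : R.StronglyClosed S₁ := ⟨le_rfl, fun Rr _ φ hφ x => val_mem R hφ x⟩
  have hsubR : R'.IsSubsystemOf R := by
    intro P φ hφ
    have hP := Cfsg.Agent.Lib.Fusion.Basic.le_of_mem R' hφ
    rw [hR P hP]
    exact hsub' P hφ
  have hSI2 : StrongInv R R' := fun P Q hPQ hQT φ hφ hφQ ψ hψ => hSI P Q hPQ hQT φ hφ hφQ ψ (hsub Q hψ)
  have hinv2 : R'.IsInvariantIn R := (isInvariantIn_iff hS₁p hRs hsubR hRsc).2 hSI2
  -- `R` is invariant in `F`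
  have hSI3 : StrongInv F R := by
    intro P Q hPQ hQT φ hφ hφQ ψ hψ
    have hP₁ : P ≤ S₁ := hPQ.trans hQT
    have hφF := hsub P hφ
    have hψP := restrict_mem F hPQ hψ
    have hr : (ψ.comp (Subgroup.inclusion hPQ)).range = (P.subgroupOf Q).map ψ := by
      apply le_antisymm
      · rintro _ ⟨x, rfl⟩
        exact ⟨Subgroup.inclusion hPQ x, x.2, rfl⟩
      · rintro _ ⟨x, hx, rfl⟩
        exact ⟨⟨x, hx⟩, rfl⟩
    obtain ⟨ι, hι, hιv, hιξ, -, -⟩ := exists_inv F hψP hr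
    have hP₁S₁ : (P.subgroupOf Q).map ψ ≤ S₁ := by
      rintro _ ⟨x, -, rfl⟩
      exact h₁.2 Q hQT ψ hψ x
    let χ₁ : ↥((P.subgroupOf Q).map ψ) →* Ω := φ.comp (ι.codRestrict P hιv)
    have hχ₁ : χ₁ ∈ F.Hom ((P.subgroupOf Q).map ψ) := F.comp_mem hι hφF hιv
    have hχ₁v : ∀ y : ↥((P.subgroupOf Q).map ψ), χ₁ y ∈ Q := fun y => hφQ _
    have hχ := F.comp_mem hχ₁ hψ hχ₁v
    refine ⟨ψ.comp (χ₁.codRestrict Q hχ₁v), by rw [hR _ hP₁S₁]; exact hχ, fun x hx => ?_⟩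
    have e : ι ⟨ψ (Subgroup.inclusion hPQ x), hx⟩ = x := hιξ x (by rw [← hr]; exact ⟨x, rfl⟩)
    have e2 : (ι.codRestrict P hιv) ⟨ψ (Subgroup.inclusion hPQ x), hx⟩ = x := Subtype.ext e
    show ψ ⟨φ ((ι.codRestrict P hιv) ⟨ψ (Subgroup.inclusion hPQ x), hx⟩), _⟩ = ψ ⟨φ x, hφQ x⟩
    simp only [e2]
  have hinv3 : R.IsInvariantIn F := (isInvariantIn_iff hS hF hsub h₁).2 hSI3
  refine ⟨hRs, hR's, ⟨⟨hR's, hF, hinv⟩, ?_⟩, ⟨⟨hR's, hRs, hinv2⟩, ?_⟩, hRs, hF, hinv3⟩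
  · -- extension in `F`
    intro α hα
    have hφα := autHom_mem R' le_rfl hα
    rw [hR' S₁ le_rfl] at hφα
    obtain ⟨-, -, -, ψ, hψ, hψP, hψS⟩ := hφα
    have hSU : S ≤ S₁ ⊔ centralizerIn S S₁ := by
      have h1 : S₁ ⊔ S₂ ≤ S₁ ⊔ centralizerIn S S₁ :=
        sup_le_sup_left (fun b hb => Subgroup.mem_inf.2 ⟨hS₂S hb, hcent₂ b hb⟩) _
      rwa [hsup] at h1
    have hUle : S₁ ⊔ centralizerIn S S₁ ≤ S₁ ⊔ S₂ := by
      rw [hsup]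
      exact sup_le hS₁S inf_le_left
    haveI : Finite ↥(S₁ ⊔ centralizerIn S S₁) := finite_of_le (sup_le hS₁S inf_le_left)
    have hφ := restrict_mem F hUle hψ
    have hr : (ψ.comp (Subgroup.inclusion hUle)).range = S₁ ⊔ centralizerIn S S₁ := by
      refine Subgroup.eq_of_le_of_card_ge ?_ (le_of_eq (card_range F hφ).symm)
      rintro _ ⟨x, rfl⟩
      exact hSU (val_mem F hφ x)
    obtain ⟨β, hβ, hβv⟩ := exists_aut_of_range F hφ hr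
    refine ⟨β, hβ, fun x => ?_, fun c hcC => ?_⟩
    · rw [hβv]
      exact hψP x
    · rw [hβv]
      obtain ⟨a, ha, b, hb, e⟩ := exists_decomp S₁ S₂ hprod hcC.1
      have haC : a ∈ Subgroup.centralizer (S₁ : Set Ω) := by
        rw [Subgroup.mem_centralizer_iff]
        intro y hy
        have h1 : y * (c : Ω) = c * y := Subgroup.mem_centralizer_iff.1 hcC.2 y hy
        rw [e] at h1
        have h2 : y * b = b * y := Subgroup.mem_centralizer_iff.1 (hcent₂ b hb) y hy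
        have h3 : y * a * b = a * y * b := by
          calc y * a * b = y * (a * b) := by group
            _ = a * b * y := h1
            _ = a * (b * y) := by group
            _ = a * (y * b) := by rw [h2]
            _ = a * y * b := by group
        exact mul_right_cancel h3
      have e1 : Subgroup.inclusion hUle c = (⟨a, Subgroup.mem_sup_left ha⟩ : ↥(S₁ ⊔ S₂)) * ⟨b, Subgroup.mem_sup_right hb⟩ :=
        Subtype.ext e
      show (c : Ω)⁻¹ * ψ (Subgroup.inclusion hUle c) ∈ _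
      rw [e1, map_mul]
      have e2 : ψ ⟨a, Subgroup.mem_sup_left ha⟩ = ((α ⟨a, ha⟩ : S₁) : Ω) := hψP ⟨a, ha⟩
      have e3 : ψ ⟨b, Subgroup.mem_sup_right hb⟩ = b := hψS ⟨b, hb⟩
      rw [e2, e3, e]
      set a' : Ω := ((α ⟨a, ha⟩ : S₁) : Ω) with ha'
      have ha'S : a' ∈ S₁ := (α ⟨a, ha⟩).2
      have ha'C : a' ∈ Subgroup.centralizer (S₁ : Set Ω) := aut_center α haC
      have h5 : (a⁻¹ * a') * b = b * (a⁻¹ * a') := hcomm _ (S₁.mul_mem (S₁.inv_mem ha) ha'S) b hb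
      have e6 : (a * b)⁻¹ * (a' * b) = a⁻¹ * a' := by
        calc (a * b)⁻¹ * (a' * b) = b⁻¹ * ((a⁻¹ * a') * b) := by group
          _ = b⁻¹ * (b * (a⁻¹ * a')) := by rw [h5]
          _ = a⁻¹ * a' := by group
      rw [e6]
      exact Subgroup.mem_inf.2 ⟨S₁.mul_mem (S₁.inv_mem ha) ha'S,
        Subgroup.mul_mem _ (Subgroup.inv_mem _ haC) ha'C⟩
  · -- extension in `R`
    intro α hα
    have hαR : α ∈ R.autGroup S₁ := Cfsg.Agent.Lib.FusionExt.PIndex.autGroup_le_of_subsystem hsubR le_rfl hα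
    have hUle : S₁ ⊔ centralizerIn S₁ S₁ ≤ S₁ := sup_le le_rfl inf_le_left
    have hSU : S₁ ≤ S₁ ⊔ centralizerIn S₁ S₁ := le_sup_left
    haveI : Finite ↥(S₁ ⊔ centralizerIn S₁ S₁) := finite_of_le hUle
    have hφ := restrict_mem R hUle (autHom_mem R le_rfl hαR)
    have hr : ((autHom α).comp (Subgroup.inclusion hUle)).range = S₁ ⊔ centralizerIn S₁ S₁ := by
      refine Subgroup.eq_of_le_of_card_ge ?_ (le_of_eq (card_range R hφ).symm)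
      rintro _ ⟨x, rfl⟩
      exact hSU (val_mem R hφ x)
    obtain ⟨β, hβ, hβv⟩ := exists_aut_of_range R hφ hr
    refine ⟨β, hβ, fun x => ?_, fun c hcC => ?_⟩
    · rw [hβv]
      rfl
    · rw [hβv]
      show (c : Ω)⁻¹ * ((α (Subgroup.inclusion hUle c) : S₁) : Ω) ∈ _
      have h1 : ((α (Subgroup.inclusion hUle c) : S₁) : Ω) ∈ Subgroup.centralizer (S₁ : Set Ω) :=
        aut_center α hcC.2
      exact Subgroup.mem_inf.2 ⟨S₁.mul_mem (S₁.inv_mem hcC.1) (α _).2,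
        Subgroup.mul_mem _ (Subgroup.inv_mem _ hcC.2) h1⟩

end main2

end Cfsg.Agent.Lib.FusionExt.DirectFactor
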