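import Cfsg.Agent.Lib.FusionExt.SecCent

/-!
# Strongly closed subgroups of a group with `C_G(O_p(G)) ≤ O_p(G)` (helper92)
-/

set_option autoImplicit false

namespace Cfsg.Agent.Lib.FusionExt.GroupNormal

open Cfsg Cfsg.Agent.Lib.Core.Basic Subgroup Cfsg.Agent.Lib.FusionExt.SecCent
open Cfsg.Agent.Lib.FusionExt.PrimeIndex

variable {G : Type*} [Group G]

section defs
variable (p : ℕ) (T : Subgroup G)

/-- `T ∩ O_p(G)`. -/
def Q0 : Subgroup G := T ⊓ pCore p G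
/-- `C_G(T ∩ O_p(G))`. -/
def CC : Subgroup G := centralizer (Q0 p T : Set G)
/-- `Z(T ∩ O_p(G))`. -/
def Z0 : Subgroup G := Q0 p T ⊓ CC p T
/-- `C_{O_p(G)}(T ∩ O_p(G))`. -/
def RR : Subgroup G := CC p T ⊓ pCore p G
/-- The centralizer of `CC / Z0`. -/
def NN : Subgroup G := secCent (CC p T) (Z0 p T)
/-- `C_G(T)`. -/
def YY : Subgroup G := centralizer (T : Set G)
/-- `Z(T)`. -/
def ZT : Subgroup G := T ⊓ YY T
/-- `C_{O_p(G)}(T)`. -/
def OO : Subgroup G := pCore p G ⊓ YY T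
/-- The centralizer in `C_G(T)` of the section `OO / ZT`. -/
def LL : Subgroup G := YY T ⊓ secCent (OO p T) (ZT T)

end defs

variable [Finite G] {p : ℕ} [Fact p.Prime]

/-- The basic hypotheses: `T` strongly closed in `S` with respect to `G`, and `C_G(O_p(G)) ≤ O_p(G)`. -/
structure SC (S : Sylow p G) (T : Subgroup G) : Prop where
  le : T ≤ S
  conj : ∀ t ∈ T, ∀ g : G, g * t * g⁻¹ ∈ (S : Subgroup G) → g * t * g⁻¹ ∈ T
  cent : centralizer (pCore p G : Set G) ≤ pCore p G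

variable {S : Sylow p G} {T : Subgroup G}

theorem inf_normal' {A B : Subgroup G} (hA : A.Normal) (hB : B.Normal) : (A ⊓ B).Normal :=
  ⟨fun x hx g => ⟨hA.conj_mem x hx.1 g, hB.conj_mem x hx.2 g⟩⟩

theorem core_normal : (pCore p G).Normal := pCore_normal p G

theorem core_le (S : Sylow p G) : pCore p G ≤ S := pCore_le_sylow S

theorem core_pEl {x : G} (hx : x ∈ pCore p G) : ∃ k : ℕ, x ^ (p ^ k) = 1 := pElement_of_mem_pCore hx

theorem syl_pEl {S : Sylow p G} {x : G} (hx : x ∈ (S : Subgroup G)) : ∃ k : ℕ, x ^ (p ^ k) = 1 := by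
  obtain ⟨k, hk⟩ := S.isPGroup' ⟨x, hx⟩
  exact ⟨k, congrArg Subtype.val hk⟩

theorem Q0_normal (h : SC S T) : (Q0 p T).Normal := by
  refine ⟨fun x hx g => ?_⟩
  have h1 : g * x * g⁻¹ ∈ pCore p G := core_normal.conj_mem x hx.2 g
  exact ⟨h.conj x hx.1 g (core_le S h1), h1⟩

theorem CC_normal (h : SC S T) : (CC p T).Normal := centralizer_normal' (Q0_normal h)

theorem Z0_normal (h : SC S T) : (Z0 p T).Normal := inf_normal' (Q0_normal h) (CC_normal h)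

theorem RR_normal (h : SC S T) : (RR p T).Normal := inf_normal' (CC_normal h) core_normal

theorem NN_normal (h : SC S T) : (NN p T).Normal := secCent_normal (CC_normal h) (Z0_normal h)

theorem conj_of_S (h : SC S T) {s t : G} (hs : s ∈ (S : Subgroup G)) (ht : t ∈ T) : s * t * s⁻¹ ∈ T :=
  h.conj t ht s (mul_mem (mul_mem hs (h.le ht)) (inv_mem hs))

theorem S_le_norm (h : SC S T) {s : G} (hs : s ∈ (S : Subgroup G)) : s ∈ normalizer (T : Set G) :=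
  mem_normalizer_of_conj_le' fun _ ht => conj_of_S h hs ht

theorem Q0_le_T : Q0 p T ≤ T := inf_le_left
theorem Q0_le_core : Q0 p T ≤ pCore p G := inf_le_right
theorem Z0_le_Q0 : Z0 p T ≤ Q0 p T := inf_le_left
theorem Z0_le_CC : Z0 p T ≤ CC p T := inf_le_right
theorem RR_le_CC : RR p T ≤ CC p T := inf_le_left
theorem RR_le_core : RR p T ≤ pCore p G := inf_le_right

/-- Elements of `C` commute with elements of `Q₀`. -/
theorem CC_comm {c x : G} (hc : c ∈ CC p T) (hx : x ∈ Q0 p T) : x * c = c * x :=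
  mem_centralizer_iff.1 hc x hx

/-- (f4) `C_T(Q₀) ≤ Q₀`. -/
theorem mem_Q0_of_CC (h : SC S T) {x : G} (hxT : x ∈ T) (hxC : x ∈ CC p T) : x ∈ Q0 p T := by
  refine ⟨hxT, ?_⟩
  have hL : (secCent (pCore p G) (Q0 p T) ⊓ CC p T).Normal :=
    inf_normal' (secCent_normal core_normal (Q0_normal h)) (CC_normal h)
  have hle : secCent (pCore p G) (Q0 p T) ⊓ CC p T ≤ pCore p G := by
    refine le_pCore_of_stab hL pCore_isPGroup Q0_le_core (fun g hg a ha => hg.1.2.2 a ha) (fun g hg b hb => ?_)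
      (fun g _ hg => core_pEl (h.cent hg))
    have := CC_comm hg.2 hb
    rw [← this]
    group
  refine hle ⟨⟨mem_normalizer_of_normal core_normal x, mem_normalizer_of_normal (Q0_normal h) x, fun a ha => ?_⟩, hxC⟩
  refine Subgroup.mem_inf.2 ⟨?_, mul_mem (inv_mem ha) (core_normal.conj_mem a ha x)⟩
  have h1 : a⁻¹ * x * a⁻¹⁻¹ ∈ T := conj_of_S h (inv_mem (core_le S ha)) hxT
  have e : a⁻¹ * (x * a * x⁻¹) = (a⁻¹ * x * a⁻¹⁻¹) * x⁻¹ := by group
  rw [e]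
  exact mul_mem h1 (inv_mem hxT)

theorem mem_Z0_of_CC (h : SC S T) {x : G} (hxT : x ∈ T) (hxC : x ∈ CC p T) : x ∈ Z0 p T :=
  ⟨mem_Q0_of_CC h hxT hxC, hxC⟩

/-- A normal subgroup centralizing its intersection with `O_p(G)` lies in `O_p(G)`. -/
theorem le_core_of_centralizes (h : centralizer (pCore p G : Set G) ≤ pCore p G) {Y : Subgroup G} (hY : Y.Normal)
    (hc : ∀ y ∈ Y, ∀ b ∈ Y ⊓ pCore p G, y * b * y⁻¹ = b) : Y ≤ pCore p G := by
  refine le_pCore_of_stab hY pCore_isPGroup inf_le_right (fun g hg a ha => ?_) hc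
    (fun g _ hg => core_pEl (h hg))
  refine Subgroup.mem_inf.2 ⟨?_, mul_mem (inv_mem ha) (core_normal.conj_mem a ha g)⟩
  have h1 : a⁻¹ * g * a⁻¹⁻¹ ∈ Y := hY.conj_mem g hg a⁻¹
  have e : a⁻¹ * (g * a * g⁻¹) = (a⁻¹ * g * a⁻¹⁻¹) * g⁻¹ := by group
  rw [e]
  exact mul_mem h1 (inv_mem hg)

/-- (f5) `C_C(R) ≤ R`. -/
theorem CC_centralizer_RR_le (h : SC S T) : CC p T ⊓ centralizer (RR p T : Set G) ≤ RR p T := by
  have hN : (CC p T ⊓ centralizer (RR p T : Set G)).Normal :=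
    inf_normal' (CC_normal h) (centralizer_normal' (RR_normal h))
  refine le_inf inf_le_left ?_
  refine le_core_of_centralizes h.cent hN fun y hy b hb => ?_
  have hbR : b ∈ RR p T := ⟨hb.1.1, hb.2⟩
  have := mem_centralizer_iff.1 hy.2 b hbR
  rw [← this]
  group

theorem Z0_le_RR : Z0 p T ≤ RR p T := fun _ hx => ⟨hx.2, hx.1.2⟩

/-- (f6). -/
theorem LLC_le (h : SC S T) : CC p T ⊓ secCent (RR p T) (Z0 p T) ≤ RR p T := by
  have hN : (CC p T ⊓ secCent (RR p T) (Z0 p T)).Normal :=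
    inf_normal' (CC_normal h) (secCent_normal (RR_normal h) (Z0_normal h))
  refine le_inf inf_le_left ?_
  refine le_pCore_of_stab hN ((pCore_isPGroup (p := p) (G := G)).to_le RR_le_core) Z0_le_RR
    (fun g hg a ha => hg.2.2.2 a ha) (fun g hg b hb => ?_) (fun g hg hg2 => ?_)
  · have := CC_comm hg.1 hb.1
    rw [← this]
    group
  · exact core_pEl ((CC_centralizer_RR_le h) ⟨hg.1, hg2⟩).2

/-- (f7). -/
theorem T_le_secCent (h : SC S T) : T ≤ secCent (RR p T) (Z0 p T) := by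
  intro t ht
  refine ⟨mem_normalizer_of_normal (RR_normal h) t, mem_normalizer_of_normal (Z0_normal h) t, fun r hr => ?_⟩
  refine mem_Z0_of_CC h ?_ (mul_mem (inv_mem hr.1) ((CC_normal h).conj_mem r hr.1 t))
  have h1 : r⁻¹ * t * r⁻¹⁻¹ ∈ T := conj_of_S h (inv_mem (core_le S hr.2)) ht
  have e : r⁻¹ * (t * r * t⁻¹) = (r⁻¹ * t * r⁻¹⁻¹) * t⁻¹ := by group
  rw [e]
  exact mul_mem h1 (inv_mem ht)

/-- (f8) `[T, C] ≤ Z₀`. -/
theorem comm_mem_Z0 (h : SC S T) {c t : G} (hc : c ∈ CC p T) (ht : t ∈ T) : c * t * c⁻¹ * t⁻¹ ∈ Z0 p T := by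
  set w := c * t * c⁻¹ * t⁻¹ with hw
  have h1 : w ∈ secCent (RR p T) (Z0 p T) :=
    mul_mem ((secCent_normal (RR_normal h) (Z0_normal h)).conj_mem t (T_le_secCent h ht) c)
      (inv_mem (T_le_secCent h ht))
  have h2 : w ∈ CC p T := by
    have e : w = c * (t * c⁻¹ * t⁻¹) := by rw [hw]; group
    rw [e]
    exact mul_mem hc ((CC_normal h).conj_mem _ (inv_mem hc) t)
  have h3 : w ∈ RR p T := (LLC_le h) ⟨h2, h1⟩
  have h4 : w ∈ (S : Subgroup G) := core_le S h3.2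
  have h5 : c * t * c⁻¹ ∈ T := by
    apply h.conj t ht c
    have e : c * t * c⁻¹ = w * t := by rw [hw]; group
    rw [e]
    exact mul_mem h4 (h.le ht)
  refine mem_Z0_of_CC h ?_ h2
  rw [hw]
  exact mul_mem h5 (inv_mem ht)

theorem CC_conj_T (h : SC S T) {c t : G} (hc : c ∈ CC p T) (ht : t ∈ T) : c * t * c⁻¹ ∈ T := by
  have h1 := (Z0_le_Q0.trans Q0_le_T) (comm_mem_Z0 h hc ht)
  have e : c * t * c⁻¹ = (c * t * c⁻¹ * t⁻¹) * t := by group
  rw [e]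
  exact mul_mem h1 ht

theorem CC_le_norm (h : SC S T) {c : G} (hc : c ∈ CC p T) : c ∈ normalizer (T : Set G) :=
  mem_normalizer_of_conj_le' fun _ ht => CC_conj_T h hc ht

theorem T_le_NN (h : SC S T) : T ≤ NN p T := by
  intro t ht
  refine ⟨mem_normalizer_of_normal (CC_normal h) t, mem_normalizer_of_normal (Z0_normal h) t, fun c hc => ?_⟩
  have h1 := comm_mem_Z0 h (inv_mem hc) ht
  have e : c⁻¹ * (t * c * t⁻¹) = c⁻¹ * t * c⁻¹⁻¹ * t⁻¹ := by group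
  rw [e]
  exact h1

/-- (f9) `N ∩ C ≤ R`. -/
theorem NN_inf_CC_le (h : SC S T) : NN p T ⊓ CC p T ≤ RR p T := by
  intro z hz
  refine (LLC_le h) ⟨hz.2, mem_normalizer_of_normal (RR_normal h) z, mem_normalizer_of_normal (Z0_normal h) z,
    fun r hr => hz.1.2.2 r hr.1⟩

/-! ### The centralizer of `T` -/

theorem YY_le_CC : YY T ≤ CC p T := centralizer_le (fun _ hx => hx.1)

theorem norm_YY {n : G} (hn : n ∈ normalizer (T : Set G)) : n ∈ normalizer (YY T : Set G) := by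
  refine mem_normalizer_of_conj_le' fun y hy => ?_
  rw [YY, mem_centralizer_iff] at hy ⊢
  intro t ht
  have ht' : n⁻¹ * t * n ∈ T := by
    have := (mem_normalizer_iff.1 (inv_mem hn) t).1 ht
    rwa [inv_inv] at this
  have h := hy _ ht'
  calc t * (n * y * n⁻¹) = n * ((n⁻¹ * t * n) * y) * n⁻¹ := by group
    _ = n * (y * (n⁻¹ * t * n)) * n⁻¹ := by rw [h]
    _ = n * y * n⁻¹ * t := by group

theorem YY_le_norm : YY T ≤ normalizer (T : Set G) := centralizer_le_normalizer _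

theorem norm_ZT {n : G} (hn : n ∈ normalizer (T : Set G)) : n ∈ normalizer (ZT T : Set G) :=
  mem_normalizer_of_conj_le' fun _ hx =>
    ⟨(mem_normalizer_iff.1 hn _).1 hx.1, (mem_normalizer_iff.1 (norm_YY hn) _).1 hx.2⟩

theorem norm_OO {n : G} (hn : n ∈ normalizer (T : Set G)) : n ∈ normalizer (OO p T : Set G) :=
  mem_normalizer_of_conj_le' fun _ hx =>
    ⟨core_normal.conj_mem _ hx.1 n, (mem_normalizer_iff.1 (norm_YY hn) _).1 hx.2⟩

theorem YY_comm {y t : G} (hy : y ∈ YY T) (ht : t ∈ T) : t * y = y * t := mem_centralizer_iff.1 hy t ht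

theorem ZT_le_Z0 (h : SC S T) : ZT T ≤ Z0 p T := fun _ hx => mem_Z0_of_CC h hx.1 (YY_le_CC hx.2)

theorem ZT_le_OO (h : SC S T) : ZT T ≤ OO p T := fun _ hx => ⟨((ZT_le_Z0 h) hx).1.2, hx.2⟩

/-- Elements of `C_G(T)` centralizing `OO` are `p`-elements. -/
theorem pEl_of_centralizer_OO (h : SC S T) {y : G} (hy : y ∈ YY T) (hy2 : y ∈ centralizer (OO p T : Set G)) :
    ∃ k : ℕ, y ^ (p ^ k) = 1 := by
  have hA : IsPGroup p (pCore p G) := pCore_isPGroup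
  have h1 : ∀ a ∈ pCore p G, a⁻¹ * (y * a * y⁻¹) ∈ OO p T := by
    intro a ha
    refine Subgroup.mem_inf.2 ⟨mul_mem (inv_mem ha) (core_normal.conj_mem a ha y), ?_⟩
    have h1 : a⁻¹ * y * a⁻¹⁻¹ ∈ YY T :=
      (mem_normalizer_iff.1 (norm_YY (S_le_norm h (inv_mem (core_le S ha)))) y).1 hy
    have e : a⁻¹ * (y * a * y⁻¹) = (a⁻¹ * y * a⁻¹⁻¹) * y⁻¹ := by group
    rw [e]
    exact mul_mem h1 (inv_mem hy)
  have h2 : ∀ b ∈ OO p T, y * b * y⁻¹ = b := by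
    intro b hb
    have := mem_centralizer_iff.1 hy2 b hb
    rw [← this]
    group
  obtain ⟨k, hk⟩ := exists_pow_mem_centralizer (B := OO p T) hA inf_le_left (g := y) h1 h2
  obtain ⟨m, hm⟩ := core_pEl (p := p) (h.cent hk)
  refine ⟨k + m, ?_⟩
  rw [pow_add, pow_mul]
  exact hm

/-- `LL` is a `p`-subgroup, so it lies in `S`. -/
theorem LL_le (h : SC S T) : LL p T ≤ S := by
  refine le_sylow_of_normalized S ?_ ?_
  · rintro ⟨g, hg⟩
    have hO : IsPGroup p (OO p T) := (pCore_isPGroup (p := p) (G := G)).to_le inf_le_left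
    obtain ⟨k, hk⟩ := exists_pow_mem_centralizer hO (ZT_le_OO h) (g := g) (fun a ha => hg.2.2.2 a ha) (fun b hb => by
      have := YY_comm hg.1 hb.1
      rw [← this]
      group)
    obtain ⟨m, hm⟩ := pEl_of_centralizer_OO h (pow_mem hg.1 _) hk
    refine ⟨k + m, Subtype.ext ?_⟩
    show g ^ p ^ (k + m) = 1
    rw [pow_add, pow_mul]
    exact hm
  · intro s hs
    have hsT := S_le_norm h hs
    refine mem_normalizer_of_conj_le' fun y hy => ?_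
    exact ⟨(mem_normalizer_iff.1 (norm_YY hsT) _).1 hy.1, secCent_conj (norm_OO hsT) (norm_ZT hsT) hy.2⟩

/-- Step 5. -/
theorem step5 (h : SC S T) {g : G} (hgT : g ∈ normalizer (T : Set G))
    (hg1 : ∀ x ∈ (S : Subgroup G) ⊓ YY T, x⁻¹ * (g * x * g⁻¹) ∈ ZT T) (hg : Nat.Coprime (orderOf g) p) :
    ∀ y ∈ YY T, g * y * g⁻¹ * y⁻¹ ∈ ZT T := by
  intro y hy
  have hgsec : g ∈ secCent (OO p T) (ZT T) :=
    ⟨norm_OO hgT, norm_ZT hgT, fun a ha => hg1 a ⟨core_le S ha.1, ha.2⟩⟩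
  have hyT := YY_le_norm hy
  set d := g * y * g⁻¹ * y⁻¹ with hd
  have hdsec : d ∈ secCent (OO p T) (ZT T) := by
    have e : d = g * (y * g⁻¹ * y⁻¹) := by rw [hd]; group
    rw [e]
    exact mul_mem hgsec (secCent_conj (norm_OO hyT) (norm_ZT hyT) (inv_mem hgsec))
  have hdY : d ∈ YY T := mul_mem ((mem_normalizer_iff.1 (norm_YY hgT) y).1 hy) (inv_mem hy)
  have hdS : d ∈ (S : Subgroup G) := (LL_le h) ⟨hdY, hdsec⟩
  refine coprime_fix (X := YY T) (c := y) hg (syl_pEl hdS) hy hdY (by rw [hd]; group) (hg1 d ⟨hdS, hdY⟩)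
    (fun z hz => (mem_normalizer_iff.1 (norm_ZT hgT) z).1 hz) (fun z hz x hx => YY_comm hx hz.1)

/-- Step 6. -/
theorem step6 (h : SC S T) {g : G} (hgT : g ∈ normalizer (T : Set G))
    (hg1 : ∀ x ∈ (S : Subgroup G) ⊓ YY T, x⁻¹ * (g * x * g⁻¹) ∈ ZT T) (hg : Nat.Coprime (orderOf g) p)
    (h6 : ∀ c ∈ CC p T, ∃ z ∈ Z0 p T, z⁻¹ * (c * g * c⁻¹ * g⁻¹) ∈ YY T) : g ∈ NN p T := by
  refine ⟨mem_normalizer_of_normal (CC_normal h) g, mem_normalizer_of_normal (Z0_normal h) g, fun c hc => ?_⟩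
  have hs5 := step5 h hgT hg1 hg
  have hZ0T : Z0 p T ≤ T := Z0_le_Q0.trans Q0_le_T
  set d := g * c * g⁻¹ * c⁻¹ with hd
  have hdC : d ∈ CC p T := mul_mem ((CC_normal h).conj_mem c hc g) (inv_mem hc)
  obtain ⟨z, hz, hy1⟩ := h6 c hc
  set y₁ := z⁻¹ * (c * g * c⁻¹ * g⁻¹) with hy₁
  have hdy : d = y₁⁻¹ * z⁻¹ := by
    rw [hy₁, hd]
    group
  set y := y₁⁻¹ with hy
  have hyY : y ∈ YY T := inv_mem hy1
  have hz' : z⁻¹ ∈ Z0 p T := inv_mem hz
  -- the key commutator computation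
  have key : ∀ v ∈ YY T, y * v * y⁻¹ * v⁻¹ ∈ ZT T := by
    intro v hv
    have hcT := CC_le_norm h hc
    have hv₀ : c⁻¹ * v * c ∈ YY T := by
      have := (mem_normalizer_iff.1 (norm_YY (inv_mem hcT)) v).1 hv
      rwa [inv_inv] at this
    have hz₁ := hs5 v hv
    have hz₂ := hs5 _ hv₀
    set z₁ := g * v * g⁻¹ * v⁻¹ with hz₁d
    set v₀ := c⁻¹ * v * c with hv₀d
    set z₂ := g * v₀ * g⁻¹ * v₀⁻¹ with hz₂d
    have hz₂Q : z₂ ∈ Q0 p T := ((ZT_le_Z0 h) hz₂).1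
    have c1 : z₂ * c = c * z₂ := CC_comm hc hz₂Q
    have c2 : z₂ * d = d * z₂ := CC_comm hdC hz₂Q
    have c3 : z⁻¹ * v = v * z⁻¹ := YY_comm hv (hZ0T hz')
    have e1 : g * v * g⁻¹ = z₁ * v := by rw [hz₁d]; group
    have e2 : g * v₀ * g⁻¹ = z₂ * v₀ := by rw [hz₂d]; group
    have e3 : g * c * g⁻¹ = d * c := by rw [hd]; group
    have e4 : c * v₀ * c⁻¹ = v := by rw [hv₀d]; group
    have e5 : z₁ * v = z₂ * (d * v * d⁻¹) := by
      calc z₁ * v = g * v * g⁻¹ := e1.symm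
        _ = g * (c * v₀ * c⁻¹) * g⁻¹ := by rw [e4]
        _ = (g * c * g⁻¹) * (g * v₀ * g⁻¹) * (g * c * g⁻¹)⁻¹ := by group
        _ = (d * c) * (z₂ * v₀) * (d * c)⁻¹ := by rw [e3, e2]
        _ = d * (c * z₂) * v₀ * c⁻¹ * d⁻¹ := by group
        _ = d * (z₂ * c) * v₀ * c⁻¹ * d⁻¹ := by rw [c1]
        _ = (d * z₂) * (c * v₀ * c⁻¹) * d⁻¹ := by group
        _ = (z₂ * d) * v * d⁻¹ := by rw [e4, c2]
        _ = z₂ * (d * v * d⁻¹) := by group
    have e6 : d * v * d⁻¹ = y * v * y⁻¹ := by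
      rw [hdy]
      calc y₁⁻¹ * z⁻¹ * v * (y₁⁻¹ * z⁻¹)⁻¹ = y * (z⁻¹ * v) * z * y⁻¹ := by rw [hy]; group
        _ = y * (v * z⁻¹) * z * y⁻¹ := by rw [c3]
        _ = y * v * y⁻¹ := by group
    have e7 : y * v * y⁻¹ * v⁻¹ = z₂⁻¹ * z₁ := by
      rw [← e6]
      calc d * v * d⁻¹ * v⁻¹ = z₂⁻¹ * (z₂ * (d * v * d⁻¹)) * v⁻¹ := by group
        _ = z₂⁻¹ * (z₁ * v) * v⁻¹ := by rw [← e5]
        _ = z₂⁻¹ * z₁ := by group
    rw [e7]
    exact mul_mem (inv_mem hz₂) hz₁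
  have hyT := YY_le_norm hyY
  have hyLL : y ∈ LL p T := by
    refine ⟨hyY, norm_OO hyT, norm_ZT hyT, fun r hr => ?_⟩
    have h1 := key r hr.2
    have h2 : r * (y * r * y⁻¹ * r⁻¹) = (y * r * y⁻¹ * r⁻¹) * r := (YY_comm hr.2 h1.1).symm
    have e : r⁻¹ * (y * r * y⁻¹) = y * r * y⁻¹ * r⁻¹ := by
      calc r⁻¹ * (y * r * y⁻¹) = r⁻¹ * ((y * r * y⁻¹ * r⁻¹) * r) := by group
        _ = r⁻¹ * (r * (y * r * y⁻¹ * r⁻¹)) := by rw [h2]
        _ = y * r * y⁻¹ * r⁻¹ := by group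
    rw [e]
    exact h1
  have hyS : y ∈ (S : Subgroup G) := (LL_le h) hyLL
  have hdS : d ∈ (S : Subgroup G) := by
    rw [hdy]
    exact mul_mem hyS (h.le (hZ0T hz'))
  have hd1 : d⁻¹ * (g * d * g⁻¹) ∈ Z0 p T := by
    have hw := hs5 y hyY
    set w := g * y * g⁻¹ * y⁻¹ with hwd
    have hz'' : g * z⁻¹ * g⁻¹ ∈ Z0 p T := (Z0_normal h).conj_mem _ hz' g
    have c4 : w * y = y * w := YY_comm hyY hw.1
    have e : d⁻¹ * (g * d * g⁻¹) = z * w * (g * z⁻¹ * g⁻¹) := by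
      have e1 : g * y * g⁻¹ = w * y := by rw [hwd]; group
      calc d⁻¹ * (g * d * g⁻¹) = (y * z⁻¹)⁻¹ * (g * (y * z⁻¹) * g⁻¹) := by rw [hdy]
        _ = z * y⁻¹ * (g * y * g⁻¹) * (g * z⁻¹ * g⁻¹) := by group
        _ = z * y⁻¹ * (w * y) * (g * z⁻¹ * g⁻¹) := by rw [e1]
        _ = z * y⁻¹ * (y * w) * (g * z⁻¹ * g⁻¹) := by rw [c4]
        _ = z * w * (g * z⁻¹ * g⁻¹) := by group
    rw [e]
    exact mul_mem (mul_mem hz ((ZT_le_Z0 h) hw)) hz''
  have hdZ : d ∈ Z0 p T := coprime_fix (X := CC p T) (c := c) hg (syl_pEl hdS) hc hdC (by rw [hd]; group) hd1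
    (fun z hz => (Z0_normal h).conj_mem z hz g) (fun z hz x hx => CC_comm hx hz.1)
  have c5 : d * c = c * d := CC_comm hc hdZ.1
  have e : c⁻¹ * (g * c * g⁻¹) = d := by
    calc c⁻¹ * (g * c * g⁻¹) = c⁻¹ * (d * c) := by rw [hd]; group
      _ = c⁻¹ * (c * d) := by rw [c5]
      _ = d := by group
  rw [e]
  exact hdZ

end Cfsg.Agent.Lib.FusionExt.GroupNormal
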