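import Cfsg.Agent.Lib.FusionExt.GroupNormal
import Cfsg.Agent.Lib.FusionExt.HyperfocalGroup

/-!
# Normal subsystems of the fusion system of a group with `C_G(O_p(G)) ≤ O_p(G)` (helper92): lifting
-/

set_option autoImplicit false

namespace Cfsg.Agent.Lib.FusionExt.GroupNormal2

open Cfsg Cfsg.FusionSystem Cfsg.Agent.Lib.Core.Basic Subgroup Cfsg.Agent.Lib.FusionExt.SecCent
open Cfsg.Agent.Lib.FusionExt.PrimeIndex Cfsg.Agent.Lib.FusionExt.GroupNormal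
open Cfsg.Agent.Lib.Fusion.Basic Cfsg.Agent.Lib.Fusion.GroupSystem Cfsg.Agent.Lib.FusionExt.Invariant
open Cfsg.Agent.Lib.Fusion.Saturation Cfsg.Agent.Lib.Fusion.Saturation2
open Cfsg.Agent.Lib.FusionExt.Normal Cfsg.Agent.Lib.FusionExt.PIndex Cfsg.Agent.Lib.Transfer.Basic

variable {G : Type*} [Group G] [Finite G] {p : ℕ} [Fact p.Prime] {S : Sylow p G} {T : Subgroup G}
  {E : FusionSystem T}

/-- The working hypotheses. -/
structure Ctx (S : Sylow p G) (E : FusionSystem T) : Prop where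
  sc : SC S T
  sat : E.IsSaturated p
  sub : E.IsSubsystemOf (groupFusionSystem (S : Subgroup G))
  inv : StrongInv (groupFusionSystem (S : Subgroup G)) E
  ext : ∀ α ∈ E.autGroup T, ∃ β ∈ (groupFusionSystem (S : Subgroup G)).autGroup (T ⊔ centralizerIn (S : Subgroup G) T),
      (∀ x : T, ((β (Subgroup.inclusion le_sup_left x) : ↥(T ⊔ centralizerIn (S : Subgroup G) T)) : G) = ((α x : T) : G)) ∧
      ∀ c : ↥(T ⊔ centralizerIn (S : Subgroup G) T), (c : G) ∈ centralizerIn (S : Subgroup G) T →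
        (c : G)⁻¹ * ((β c : ↥(T ⊔ centralizerIn (S : Subgroup G) T)) : G) ∈ T ⊓ Subgroup.centralizer (T : Set G)

theorem ctx_of_isNormalIn (hE : E.IsNormalIn (groupFusionSystem (S : Subgroup G)) p)
    (hG : centralizer (pCore p G : Set G) ≤ pCore p G) : Ctx S E := by
  obtain ⟨⟨hs, -, hsub, hsc, hInv, hFr⟩, hext⟩ := hE
  refine ⟨⟨hsc.1, fun t ht g hgt => ?_, hG⟩, hs, hsub, strong_of_inv hInv hFr, hext⟩
  have hle : zpowers t ≤ (S : Subgroup G) := (zpowers_le.2 ht).trans hsc.1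
  have hφ : conjHom (zpowers t) g ∈ (groupFusionSystem (S : Subgroup G)).Hom (zpowers t) := by
    refine ⟨hle, ?_, g, fun x => rfl⟩
    rintro ⟨x, k, rfl⟩
    show g * t ^ k * g⁻¹ ∈ (S : Subgroup G)
    rw [← conj_zpow]
    exact zpow_mem hgt k
  exact hsc.2 (zpowers t) (zpowers_le.2 ht) _ hφ ⟨t, mem_zpowers t⟩

variable (hc : Ctx S E)
include hc

theorem Ctx.T_isP : IsPGroup p T := S.isPGroup'.to_le hc.sc.le

theorem Ctx.hom_conj {P : Subgroup G} {φ : P →* G} (hφ : φ ∈ E.Hom P) : ∃ g : G, ∀ x : P, φ x = g * x * g⁻¹ :=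
  (hc.sub P hφ).2.2

omit hc in
/-- The conjugation action on `Q₀`. -/
noncomputable def kap (h : SC S T) : G →* MulAut (Q0 p T) := @MulAut.conjNormal G _ (Q0 p T) (Q0_normal h)

omit hc in
theorem kap_apply (h : SC S T) (g : G) (x : Q0 p T) : ((kap h g x : Q0 p T) : G) = g * x * g⁻¹ := rfl

omit hc in
theorem kap_eq_one_iff (h : SC S T) {g : G} : kap h g = 1 ↔ g ∈ CC p T := by
  constructor
  · intro hg
    rw [CC, mem_centralizer_iff]
    intro x hx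
    have h1 := kap_apply h g ⟨x, hx⟩
    rw [hg] at h1
    have h2 : x = g * x * g⁻¹ := h1
    calc x * g = (g * x * g⁻¹) * g := by rw [← h2]
      _ = g * x := by group
  · intro hg
    ext x
    rw [kap_apply]
    have := CC_comm hg x.2
    show g * (x : G) * g⁻¹ = x
    rw [← this]
    group

omit hc in
/-- `G₀`: the preimage of `Aut_E(Q₀)`. -/
noncomputable def G0 (h : SC S T) (E : FusionSystem T) : Subgroup G := (E.autGroup (Q0 p T)).comap (kap h)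

omit hc in
/-- `N₀ = N ∩ G₀`. -/
noncomputable def N0 (h : SC S T) (E : FusionSystem T) : Subgroup G := NN p T ⊓ G0 h E

/-- Maps of `E` with source containing `Q₀` preserve it. -/
theorem Ctx.map_Q0 {P : Subgroup G} {φ : P →* G} (hφ : φ ∈ E.Hom P) (x : P) (hx : (x : G) ∈ Q0 p T) : φ x ∈ Q0 p T := by
  obtain ⟨g, hg⟩ := hc.hom_conj hφ
  rw [hg]
  exact (Q0_normal hc.sc).conj_mem _ hx g

/-- `Q₀` is fully automized and receptive in `E`. -/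
theorem Ctx.Q0_fa_rec : E.IsFullyAutomized p (Q0 p T) ∧ E.IsReceptive (Q0 p T) := by
  obtain ⟨Q', hconj, hfa, hrec⟩ := hc.sat (Q0 p T) Q0_le_T
  obtain ⟨φ, hφ, hr⟩ := hconj
  have hle : φ.range ≤ Q0 p T := by
    rintro _ ⟨x, rfl⟩
    exact hc.map_Q0 hφ x x.2
  have heq : φ.range = Q0 p T := Subgroup.eq_of_le_of_card_ge hle (le_of_eq (card_range E hφ).symm)
  rw [← hr, heq] at hfa hrec
  exact ⟨hfa, hrec⟩

theorem Ctx.T_fa : E.IsFullyAutomized p T :=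
  isFullyAutomized_of_isFullyNormalized E hc.T_isP hc.sat (isFullyNormalized_top E hc.T_isP)

/-- Automorphisms of `P ≥ Q₀` trivial on `Q₀` are `p`-elements: the commutators. -/
theorem Ctx.triv_comm {P : Subgroup G} (hQP : Q0 p T ≤ P) (hPT : P ≤ T) (κ : MulAut P)
    (hκ : ∀ q : P, (q : G) ∈ Q0 p T → κ q = q) (x : P) : (x : G)⁻¹ * ((κ x : P) : G) ∈ Z0 p T := by
  refine mem_Z0_of_CC hc.sc (mul_mem (inv_mem (hPT x.2)) (hPT (κ x).2)) ?_
  rw [CC, mem_centralizer_iff]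
  intro q hq
  have hq' : (x : G) * q * (x : G)⁻¹ ∈ Q0 p T := (Q0_normal hc.sc).conj_mem q hq x
  have e1 := hκ ⟨_, hQP hq'⟩ hq'
  have e2 : (⟨(x : G) * q * (x : G)⁻¹, hQP hq'⟩ : P) = x * ⟨q, hQP hq⟩ * x⁻¹ := rfl
  rw [e2, map_mul, map_mul, map_inv, hκ ⟨q, hQP hq⟩ hq] at e1
  have e3 : ((κ x : P) : G) * q * ((κ x : P) : G)⁻¹ = (x : G) * q * (x : G)⁻¹ := congrArg Subtype.val e1
  calc q * ((x : G)⁻¹ * ((κ x : P) : G)) = (x : G)⁻¹ * (((x : G) * q * (x : G)⁻¹) * ((κ x : P) : G)) := by group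
    _ = (x : G)⁻¹ * ((((κ x : P) : G) * q * ((κ x : P) : G)⁻¹) * ((κ x : P) : G)) := by rw [e3]
    _ = (x : G)⁻¹ * ((κ x : P) : G) * q := by group

theorem Ctx.triv_pEl {P : Subgroup G} (hQP : Q0 p T ≤ P) (hPT : P ≤ T) (κ : MulAut P)
    (hκ : ∀ q : P, (q : G) ∈ Q0 p T → κ q = q) : ∃ k : ℕ, κ ^ p ^ k = 1 := by
  have hP : IsPGroup p P := hc.T_isP.to_le hPT
  obtain ⟨k, hk⟩ := pow_fix_step hP κ (M := ⊤) (N := Z0 p T) le_top (fun x _ => hc.triv_comm hQP hPT κ hκ x)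
    ⟨0, fun z hz => by
      rw [pow_zero, pow_one]
      exact hκ z (Z0_le_Q0 hz)⟩
  refine ⟨k, ?_⟩
  ext z
  rw [hk z (mem_top _)]
  rfl

/-- `p`-elements of `Aut_E(T)` are inner. -/
theorem Ctx.inner_of_pEl {κ : MulAut T} (hκ : κ ∈ E.autGroup T) {k : ℕ} (hk : κ ^ p ^ k = 1) :
    ∃ t ∈ T, ∀ x : T, ((κ x : T) : G) = t * x * t⁻¹ := by
  have hR : IsPGroup p (zpowers κ) := by
    rintro ⟨y, j, rfl⟩
    refine ⟨k, Subtype.ext ?_⟩
    show (κ ^ j) ^ p ^ k = 1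
    rw [← zpow_natCast, ← zpow_mul, mul_comm, zpow_mul, zpow_natCast, hk, one_zpow]
  obtain ⟨χ, hχ, hχr⟩ := IsFullyAutomized.exists_conj E hc.T_fa hR ((zpowers_le.2 hκ))
  have h1 := hχr κ (mem_zpowers κ)
  obtain ⟨t, ht, htv⟩ := (mem_autInducedBy_iff T T _).1 h1
  refine ⟨((χ⁻¹ ⟨t, ht⟩ : T) : G), (χ⁻¹ ⟨t, ht⟩).2, fun x => ?_⟩
  have h2 := htv (χ x)
  have e : (χ * κ * χ⁻¹) (χ x) = χ (κ x) := by
    simp
  rw [e] at h2
  have h3 : χ (κ x) = ⟨t, ht⟩ * χ x * ⟨t, ht⟩⁻¹ := Subtype.ext h2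
  have h4 : κ x = χ⁻¹ (χ (κ x)) := by simp
  rw [h4, h3, map_mul, map_mul, map_inv]
  have h5 : χ⁻¹ (χ x) = x := by simp
  rw [h5]
  rfl

/-- Every `α ∈ Aut_E(T)` permutes `Q₀`. -/
theorem Ctx.aut_map_Q0 {α : MulAut T} (hα : α ∈ E.autGroup T) (x : T) (hx : (x : G) ∈ Q0 p T) :
    ((α x : T) : G) ∈ Q0 p T :=
  hc.map_Q0 (autHom_mem E le_rfl hα) x hx

/-- The automorphism `c α c⁻¹ α⁻¹`, with `c ∈ C`: the condition of step 6. -/
theorem Ctx.h6 {α : MulAut T} (hα : α ∈ E.autGroup T) {g : G} (hg : ∀ t : T, ((α t : T) : G) = g * t * g⁻¹)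
    {c : G} (hcC : c ∈ CC p T) : ∃ z ∈ Z0 p T, z⁻¹ * (c * g * c⁻¹ * g⁻¹) ∈ YY T := by
  have hsc := hc.sc
  have hcT := CC_le_norm hsc hcC
  let cT : MulAut T := normAct T hcT
  have hcTv : ∀ t : T, ((cT t : T) : G) = c * t * c⁻¹ := fun t => rfl
  have hcTinv : ∀ t : T, (((cT⁻¹ : MulAut T) t : T) : G) = c⁻¹ * t * c := fun t => normAct_inv_apply hcT t
  have hFhom : conjHom T c ∈ (groupFusionSystem (S : Subgroup G)).Hom T := by
    refine ⟨hsc.le, fun x => hsc.le ?_, c, fun x => rfl⟩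
    exact CC_conj_T hsc hcC x.2
  have hrange : (conjHom T c).range = T := by
    apply le_antisymm
    · rintro _ ⟨x, rfl⟩
      exact CC_conj_T hsc hcC x.2
    · intro y hy
      have h1 : c⁻¹ * y * c⁻¹⁻¹ ∈ T := CC_conj_T hsc (inv_mem hcC) hy
      refine ⟨⟨_, h1⟩, ?_⟩
      show c * (c⁻¹ * y * c⁻¹⁻¹) * c⁻¹ = y
      group
  have hα'' : cT * α * cT⁻¹ ∈ E.autGroup T := by
    refine strong_conj_aut hc.inv le_rfl hFhom hrange hα _ fun x hx => ?_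
    show (((cT * α * cT⁻¹) ⟨conjHom T c x, hx⟩ : T) : G) = conjHom T c (α x)
    have e : (⟨conjHom T c x, hx⟩ : T) = cT x := rfl
    rw [e]
    simp only [MulAut.mul_apply, MulAut.inv_apply_self]
    rfl
  set κ : MulAut T := cT * α * cT⁻¹ * α⁻¹ with hκd
  have hκ : κ ∈ E.autGroup T := mul_mem hα'' (inv_mem hα)
  have hαinv : ∀ t : T, (((α⁻¹ : MulAut T) t : T) : G) = g⁻¹ * t * g := by
    intro t
    have h1 := hg (α⁻¹ t)
    rw [MulAut.apply_inv_self] at h1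
    rw [eq_comm]
    calc g⁻¹ * (t : G) * g = g⁻¹ * (g * ((α⁻¹ t : T) : G) * g⁻¹) * g := by rw [← h1]
      _ = _ := by group
  have hκv : ∀ t : T, ((κ t : T) : G) = (c * g * c⁻¹ * g⁻¹) * t * (c * g * c⁻¹ * g⁻¹)⁻¹ := by
    intro t
    rw [hκd]
    simp only [MulAut.mul_apply]
    rw [hcTv, hg, hcTinv, hαinv]
    group
  have hκQ : ∀ q : T, (q : G) ∈ Q0 p T → κ q = q := by
    intro q hq
    apply Subtype.ext
    rw [hκv]
    have h1 : g⁻¹ * (q : G) * g⁻¹⁻¹ ∈ Q0 p T := (Q0_normal hsc).conj_mem _ hq g⁻¹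
    have h2 : c⁻¹ * (g⁻¹ * (q : G) * g⁻¹⁻¹) = (g⁻¹ * (q : G) * g⁻¹⁻¹) * c⁻¹ := (CC_comm (inv_mem hcC) h1).symm
    have h3 : (c : G) * q = q * c := (CC_comm hcC hq).symm
    calc (c * g * c⁻¹ * g⁻¹) * (q : G) * (c * g * c⁻¹ * g⁻¹)⁻¹
        = c * g * (c⁻¹ * (g⁻¹ * (q : G) * g⁻¹⁻¹)) * c * g⁻¹ * c⁻¹ := by group
      _ = c * g * ((g⁻¹ * (q : G) * g⁻¹⁻¹) * c⁻¹) * c * g⁻¹ * c⁻¹ := by rw [h2]
      _ = c * q * c⁻¹ := by group
      _ = q * c * c⁻¹ := by rw [h3]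
      _ = q := by group
  obtain ⟨k, hk⟩ := hc.triv_pEl Q0_le_T le_rfl κ hκQ
  obtain ⟨z, hzT, hzv⟩ := hc.inner_of_pEl hκ hk
  have hzC : z ∈ CC p T := by
    rw [CC, mem_centralizer_iff]
    intro q hq
    have h1 := hzv ⟨q, Q0_le_T hq⟩
    rw [hκQ ⟨q, Q0_le_T hq⟩ hq] at h1
    have h2 : q = z * q * z⁻¹ := h1
    calc q * z = (z * q * z⁻¹) * z := by rw [← h2]
      _ = z * q := by group
  refine ⟨z, mem_Z0_of_CC hsc hzT hzC, ?_⟩
  rw [YY, mem_centralizer_iff]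
  intro t ht
  have h1 := hzv ⟨t, ht⟩
  rw [hκv] at h1
  have h1' : (c * g * c⁻¹ * g⁻¹) * t * (c * g * c⁻¹ * g⁻¹)⁻¹ = z * t * z⁻¹ := h1
  calc t * (z⁻¹ * (c * g * c⁻¹ * g⁻¹)) = z⁻¹ * ((z * t * z⁻¹) * (c * g * c⁻¹ * g⁻¹)) := by group
    _ = z⁻¹ * (((c * g * c⁻¹ * g⁻¹) * t * (c * g * c⁻¹ * g⁻¹)⁻¹) * (c * g * c⁻¹ * g⁻¹)) := by rw [h1']
    _ = z⁻¹ * (c * g * c⁻¹ * g⁻¹) * t := by group

/-- `kap g` lies in `Aut_E(Q₀)` when `g` induces an element of `Aut_E(T)` on `T`. -/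
theorem Ctx.kap_mem_of_aut {α : MulAut T} (hα : α ∈ E.autGroup T) {g : G} (hg : ∀ t : T, ((α t : T) : G) = g * t * g⁻¹) :
    kap hc.sc g ∈ E.autGroup (Q0 p T) := by
  refine mem_autGroup_of_hom E (restrict_mem E (Q0_le_T (p := p) (T := T)) (autHom_mem E le_rfl hα)) _ fun x => ?_
  rw [kap_apply]
  exact (hg ⟨x, Q0_le_T x.2⟩).symm

/-- (f15): a `p'`-element of `Aut_E(T)` lifts to `N₀`. -/
theorem Ctx.lift_coprime {α : MulAut T} (hα : α ∈ E.autGroup T) (hcop : Nat.Coprime (orderOf α) p) :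
    ∃ g ∈ N0 hc.sc E, ∀ t : T, ((α t : T) : G) = g * t * g⁻¹ := by
  have hsc := hc.sc
  obtain ⟨β, hβ, hβT, hβC⟩ := hc.ext α hα
  have hU : T ⊔ centralizerIn (S : Subgroup G) T ≤ (S : Subgroup G) := sup_le hsc.le inf_le_left
  obtain ⟨g₁, hg₁⟩ := (conj_aut_iff hU β).1 hβ
  have hg₁T : ∀ t : T, ((α t : T) : G) = g₁ * t * g₁⁻¹ := fun t => by
    rw [← hβT t, hg₁]
    rfl
  have hg₁N : g₁ ∈ normalizer (T : Set G) := mem_normalizer_of_conj T α g₁ hg₁T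
  have hg₁C : ∀ x ∈ (S : Subgroup G) ⊓ YY T, x⁻¹ * (g₁ * x * g₁⁻¹) ∈ ZT T := by
    intro x hx
    have hxU : x ∈ T ⊔ centralizerIn (S : Subgroup G) T := Subgroup.mem_sup_right hx
    have h1 := hβC ⟨x, hxU⟩ hx
    rw [hg₁] at h1
    exact h1
  have hSYnorm : g₁ ∈ normalizer (((S : Subgroup G) ⊓ YY T : Subgroup G) : Set G) := by
    refine mem_normalizer_of_conj_le' fun x hx => ?_
    have h1 := hg₁C x hx
    have e : g₁ * x * g₁⁻¹ = x * (x⁻¹ * (g₁ * x * g₁⁻¹)) := by group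
    rw [e]
    exact mul_mem hx (Subgroup.mem_inf.2 ⟨hsc.le h1.1, h1.2⟩)
  have hg₁sec : g₁ ∈ secCent ((S : Subgroup G) ⊓ YY T) (ZT T) := ⟨hSYnorm, norm_ZT hg₁N, hg₁C⟩
  obtain ⟨a, b, hab, hcomm, ha, hb, ⟨k, hk⟩, hbc⟩ := exists_pPart_decomp (p := p) g₁
  have hzN : zpowers g₁ ≤ normalizer (T : Set G) := zpowers_le.2 hg₁N
  have hbN : b ∈ normalizer (T : Set G) := hzN hb
  have haN : a ∈ normalizer (T : Set G) := hzN ha
  have hbsec : b ∈ secCent ((S : Subgroup G) ⊓ YY T) (ZT T) := (zpowers_le.2 hg₁sec) hb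
  -- `a` acts trivially on `T`
  have hρ : normAct T hg₁N = α := by
    ext t
    rw [normAct_apply, hg₁T]
  have ha1 : normAct T haN = 1 := by
    obtain ⟨i, hi⟩ := ha
    have e1 : normAct T haN = α ^ i := by
      rw [← hρ]
      have e2 : (⟨a, haN⟩ : normalizer (T : Set G)) = (⟨g₁, hg₁N⟩ : normalizer (T : Set G)) ^ i := by
        apply Subtype.ext
        rw [Subgroup.coe_zpow]
        exact hi.symm
      show T.normalizerMonoidHom ⟨a, haN⟩ = (T.normalizerMonoidHom ⟨g₁, hg₁N⟩) ^ i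
      rw [e2, map_zpow]
    have h1 : (normAct T haN) ^ p ^ k = 1 := by
      have e2 : (⟨a, haN⟩ : normalizer (T : Set G)) ^ p ^ k = 1 := Subtype.ext hk
      show (T.normalizerMonoidHom ⟨a, haN⟩) ^ p ^ k = 1
      rw [← map_pow, e2, map_one]
    have h2 : (normAct T haN) ^ orderOf α = 1 := by
      rw [e1, ← zpow_natCast, ← zpow_mul, mul_comm, zpow_mul, zpow_natCast, pow_orderOf_eq_one, one_zpow]
    have h3 : normAct T haN ∈ (⊥ : Subgroup (MulAut T)) :=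
      mem_of_pow_mem_of_coprime (n := orderOf α) (by rw [h2]; exact one_mem _) h1 hcop
    simpa using h3
  have hbv : ∀ t : T, ((α t : T) : G) = b * t * b⁻¹ := by
    intro t
    rw [hg₁T t, hab]
    have h1 : b * (t : G) * b⁻¹ ∈ T := (mem_normalizer_iff.1 hbN t).1 t.2
    have h2 := congrArg (fun f : MulAut T => ((f ⟨_, h1⟩ : T) : G)) ha1
    have h2' : a * (b * (t : G) * b⁻¹) * a⁻¹ = b * (t : G) * b⁻¹ := h2
    calc a * b * (t : G) * (a * b)⁻¹ = a * (b * (t : G) * b⁻¹) * a⁻¹ := by group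
      _ = b * t * b⁻¹ := h2'
  have hbN' : b ∈ NN p T := step6 hsc hbN hbsec.2.2 hbc (fun c hcC => hc.h6 hα hbv hcC)
  exact ⟨b, ⟨hbN', hc.kap_mem_of_aut hα hbv⟩, hbv⟩

theorem Ctx.T_le_N0 : T ≤ N0 hc.sc E := by
  intro t ht
  refine ⟨T_le_NN hc.sc ht, ?_⟩
  refine autInducedBy_le_autGroup E Q0_le_T ?_
  exact (mem_autInducedBy_iff T _ _).2 ⟨t, ht, fun x => rfl⟩

/-- (f14): every element of `Aut_E(T)` agrees with an element of `N₀`. -/
theorem Ctx.lift_any {α : MulAut T} (hα : α ∈ E.autGroup T) :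
    ∃ n ∈ N0 hc.sc E, ∀ x : T, ((α x : T) : G) = n * x * n⁻¹ := by
  obtain ⟨a, b, hab, -, ha, hb, ⟨k, hk⟩, hbc⟩ := exists_pPart_decomp (p := p) α
  have hz := zpowers_le.2 hα
  obtain ⟨t, ht, htv⟩ := hc.inner_of_pEl (hz ha) hk
  obtain ⟨g, hg, hgv⟩ := hc.lift_coprime (hz hb) hbc
  refine ⟨t * g, mul_mem (hc.T_le_N0 ht) hg, fun x => ?_⟩
  rw [hab, MulAut.mul_apply, htv, hgv]
  group

theorem Ctx.kap_conj_mem {a : MulAut (Q0 p T)} (ha : a ∈ E.autGroup (Q0 p T)) (g : G) :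
    kap hc.sc g * a * (kap hc.sc g)⁻¹ ∈ E.autGroup (Q0 p T) := by
  have hsc := hc.sc
  have hFhom : conjHom (Q0 p T) g ∈ (groupFusionSystem (S : Subgroup G)).Hom (Q0 p T) := by
    refine ⟨Q0_le_T.trans hsc.le, fun x => ?_, g, fun x => rfl⟩
    exact hsc.le (Q0_le_T ((Q0_normal hsc).conj_mem _ x.2 g))
  have hrange : (conjHom (Q0 p T) g).range = Q0 p T := by
    apply le_antisymm
    · rintro _ ⟨x, rfl⟩
      exact (Q0_normal hsc).conj_mem _ x.2 g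
    · intro y hy
      have h1 := (Q0_normal hsc).conj_mem _ hy g⁻¹
      refine ⟨⟨_, h1⟩, ?_⟩
      show g * (g⁻¹ * y * g⁻¹⁻¹) * g⁻¹ = y
      group
  refine strong_conj_aut hc.inv Q0_le_T hFhom hrange ha _ fun x hx => ?_
  have e : (⟨conjHom (Q0 p T) g x, hx⟩ : Q0 p T) = kap hsc g x := rfl
  rw [e]
  simp only [MulAut.mul_apply, MulAut.inv_apply_self]
  rfl

theorem Ctx.G0_normal : (G0 hc.sc E).Normal := by
  refine ⟨fun n hn g => ?_⟩
  show kap hc.sc (g * n * g⁻¹) ∈ E.autGroup (Q0 p T)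
  rw [map_mul, map_mul, map_inv]
  exact hc.kap_conj_mem hn g

theorem Ctx.N0_normal : (N0 hc.sc E).Normal := inf_normal' (NN_normal hc.sc) hc.G0_normal

theorem Ctx.CC_le_G0 : CC p T ≤ G0 hc.sc E := by
  intro c hc'
  show kap hc.sc c ∈ E.autGroup (Q0 p T)
  rw [(kap_eq_one_iff hc.sc).2 hc']
  exact one_mem _

/-- (f13): `N₀` covers `Aut_E(Q₀)`. -/
theorem Ctx.exists_N0 {a : MulAut (Q0 p T)} (ha : a ∈ E.autGroup (Q0 p T)) : ∃ n ∈ N0 hc.sc E, kap hc.sc n = a := by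
  have hsc := hc.sc
  obtain ⟨hfa, hrec⟩ := hc.Q0_fa_rec
  set A := E.autGroup (Q0 p T) with hA
  set U := autInducedBy T (Q0 p T) with hU
  set A₁ : Subgroup (MulAut (Q0 p T)) := (N0 hsc E).map (kap hsc) with hA₁
  have hUA : U ≤ A := autInducedBy_le_autGroup E Q0_le_T
  have hA₁A : A₁ ≤ A := by
    rintro _ ⟨n, hn, rfl⟩
    exact hn.2
  have hUA₁ : U ≤ A₁ := by
    intro u hu
    obtain ⟨t, ht, htv⟩ := (mem_autInducedBy_iff T _ _).1 hu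
    refine ⟨t, hc.T_le_N0 ht, ?_⟩
    ext x
    rw [kap_apply, htv]
  have hsyl : IsSylowIn p U A := hfa.2
  have hsyl1 : IsSylowIn p U A₁ := hsyl.mono hUA hUA₁ hA₁A
  have hUp : IsPGroup p U := isPGroup_autInducedBy _ hc.T_isP
  -- conjugating the Sylow subgroup by `a`
  let C : Subgroup (MulAut (Q0 p T)) := U.map (MulAut.conj a).toMonoidHom
  have hCp : IsPGroup p C := hUp.map _
  have hN0A : ∀ a' ∈ A, ∀ n ∈ N0 hsc E, ∃ n' ∈ N0 hsc E, a' * kap hsc n * a'⁻¹ = kap hsc n' := by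
    intro a' ha' n hn
    obtain ⟨g, hg⟩ := (conj_aut_iff (Q0_le_T.trans hsc.le) a').1 (autGroup_le_of_subsystem hc.sub Q0_le_T ha')
    have ea : a' = kap hsc g := by
      ext x
      rw [hg, kap_apply]
    refine ⟨g * n * g⁻¹, hc.N0_normal.conj_mem n hn g, ?_⟩
    rw [ea, map_mul, map_mul, map_inv]
  have hCA₁ : C ≤ A₁ := by
    rintro _ ⟨u, hu, rfl⟩
    obtain ⟨n, hn, hnu⟩ := hUA₁ hu
    rw [← hnu]
    obtain ⟨n', hn', e⟩ := hN0A a ha n hn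
    exact ⟨n', hn', e.symm⟩
  obtain ⟨b, hb, hbc⟩ := hsyl1.exists_conj hCA₁ hCp
  have hbA : b ∈ A := hA₁A hb
  set e := b * a with he
  have heA : e ∈ A := mul_mem hbA ha
  have hUe : ∀ u ∈ U, e * u * e⁻¹ ∈ U := by
    intro u hu
    have h1 := hbc (a * u * a⁻¹) ⟨u, hu, rfl⟩
    have e2 : e * u * e⁻¹ = b * (a * u * a⁻¹) * b⁻¹ := by
      rw [he]
      group
    rw [e2]
    exact h1
  -- extend `e` to `T`
  have hφ : autHom e ∈ E.Hom (Q0 p T) := autHom_mem E Q0_le_T heA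
  have hext : T ≤ extender T (Q0 p T) (autHom e) := by
    intro t ht
    have htN : t ∈ normalizer ((Q0 p T : Subgroup G) : Set G) := mem_normalizer_of_normal (Q0_normal hsc) t
    have hu : kap hsc t ∈ U := (mem_autInducedBy_iff T _ _).2 ⟨t, ht, fun x => rfl⟩
    obtain ⟨h, hh, hhv⟩ := (mem_autInducedBy_iff T _ _).1 (hUe _ hu)
    refine mem_extender_of _ ht htN hh fun x => ?_
    have h1 := hhv (e x)
    have e2 : (e * kap hsc t * e⁻¹) (e x) = e (kap hsc t x) := by simp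
    rw [e2] at h1
    exact h1
  obtain ⟨ψ, hψ, hψv⟩ := IsReceptive.exists_extension E hrec hφ (autHom_range e) hext Q0_le_T
  have hψr : ψ.range = T := by
    refine Subgroup.eq_of_le_of_card_ge (range_le E hψ) (le_of_eq (card_range E hψ).symm)
  obtain ⟨α, hα, hαv⟩ := exists_aut_of_range E hψ hψr
  obtain ⟨n, hn, hnv⟩ := hc.lift_any hα
  have hke : kap hsc n = e := by
    ext x
    rw [kap_apply, ← hnv ⟨x, Q0_le_T x.2⟩, hαv]
    exact hψv x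
  obtain ⟨b', hb', rfl⟩ := hb
  obtain ⟨n'', hn'', hn''e⟩ : ∃ n'' ∈ N0 hsc E, kap hsc n'' = (kap hsc b')⁻¹ * e :=
    ⟨b'⁻¹ * n, mul_mem (inv_mem hb') hn, by rw [map_mul, map_inv, hke]⟩
  refine ⟨n'', hn'', ?_⟩
  rw [hn''e, he]
  show (kap hsc b')⁻¹ * (kap hsc b' * a) = a
  group

/-- (f22): the Sylow subgroup of `N₀`. -/
theorem Ctx.W_decomp {s : G} (hs : s ∈ N0 hc.sc E) (hsS : s ∈ (S : Subgroup G)) :
    ∃ t ∈ T, t⁻¹ * s ∈ NN p T ⊓ CC p T := by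
  have hsc := hc.sc
  obtain ⟨hfa, -⟩ := hc.Q0_fa_rec
  have hUA : autInducedBy T (Q0 p T) ≤ E.autGroup (Q0 p T) := autInducedBy_le_autGroup E Q0_le_T
  have hsyl : IsSylowIn p (autInducedBy T (Q0 p T)) (E.autGroup (Q0 p T)) := hfa.2
  have hmax := (isSylowIn_iff_maximal hUA).1 hsyl
  set K : Subgroup (MulAut (Q0 p T)) := ((N0 hsc E) ⊓ (S : Subgroup G)).map (kap hsc) with hK
  have hKp : IsPGroup p K := (S.isPGroup'.to_le inf_le_right).map _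
  have hKA : K ≤ E.autGroup (Q0 p T) := by
    rintro _ ⟨n, hn, rfl⟩
    exact hn.1.2
  have hUK : autInducedBy T (Q0 p T) ≤ K := by
    intro u hu
    obtain ⟨t, ht, htv⟩ := (mem_autInducedBy_iff T _ _).1 hu
    refine ⟨t, ⟨hc.T_le_N0 ht, hsc.le ht⟩, ?_⟩
    ext x
    rw [kap_apply, htv]
  have hKU := hmax.2 K hKA hKp hUK
  have hsK : kap hsc s ∈ K := ⟨s, ⟨hs, hsS⟩, rfl⟩
  rw [hKU] at hsK
  obtain ⟨t, ht, htv⟩ := (mem_autInducedBy_iff T _ _).1 hsK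
  refine ⟨t, ht, mul_mem (Subgroup.inv_mem _ (T_le_NN hsc ht)) hs.1, ?_⟩
  have h1 : kap hsc (t⁻¹ * s) = 1 := by
    have ht' : kap hsc t = kap hsc s := by
      ext x
      rw [kap_apply, htv]
    rw [map_mul, map_inv, ht']
    group
  exact (kap_eq_one_iff hsc).1 h1

/-- (f24): the focal-type commutators of `N₀` in `N₀ ∩ S` lie in `T`. -/
theorem Ctx.focal_mem {g x : G} (hg : g ∈ N0 hc.sc E) (hx : x ∈ N0 hc.sc E) (hxS : x ∈ (S : Subgroup G))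
    (hgx : g * x * g⁻¹ ∈ (S : Subgroup G)) : x⁻¹ * (g * x * g⁻¹) ∈ T := by
  have hsc := hc.sc
  obtain ⟨t, ht, hz⟩ := hc.W_decomp hx hxS
  set z := t⁻¹ * x with hzd
  have hxe : x = t * z := by rw [hzd]; group
  have hzR : z ∈ RR p T := (NN_inf_CC_le hsc) hz
  have hzS : z ∈ (S : Subgroup G) := core_le S hzR.2
  -- `g z g⁻¹ = z z'`
  have hz' : z⁻¹ * (g * z * g⁻¹) ∈ Z0 p T := hg.1.2.2 z hz.2
  set z' := z⁻¹ * (g * z * g⁻¹) with hz'd
  have hz'T : z' ∈ T := Q0_le_T (Z0_le_Q0 hz')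
  have e1 : g * z * g⁻¹ = z * z' := by rw [hz'd]; group
  have e2 : g * t * g⁻¹ = (g * x * g⁻¹) * (z * z')⁻¹ := by
    rw [← e1, hxe]
    group
  have h3 : g * t * g⁻¹ ∈ T := by
    refine hsc.conj t ht g ?_
    rw [e2]
    exact mul_mem hgx (inv_mem (mul_mem hzS (hsc.le hz'T)))
  have e3 : x⁻¹ * (g * x * g⁻¹) = z⁻¹ * (t⁻¹ * (g * t * g⁻¹)) * z * z' := by
    have e4 : g * x * g⁻¹ = (g * t * g⁻¹) * (z * z') := by rw [e2]; group
    rw [e4, hxe]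
    group
  rw [e3]
  refine mul_mem ?_ hz'T
  have h5 := conj_of_S hsc (inv_mem hzS) (mul_mem (inv_mem ht) h3)
  rwa [inv_inv] at h5

end Cfsg.Agent.Lib.FusionExt.GroupNormal2
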