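import Cfsg.Agent.Lib.FusionExt.GroupNormal2
import Cfsg.Agent.Lib.Fusion.Alperin

/-!
# Normal subsystems of the fusion system of a group with `C_G(O_p(G)) ≤ O_p(G)` (helper92): the subgroup
-/

set_option autoImplicit false

namespace Cfsg.Agent.Lib.FusionExt.GroupNormal3

open Cfsg Cfsg.FusionSystem Cfsg.Agent.Lib.Core.Basic Subgroup Cfsg.Agent.Lib.FusionExt.SecCent
open Cfsg.Agent.Lib.FusionExt.PrimeIndex Cfsg.Agent.Lib.FusionExt.GroupNormal
open Cfsg.Agent.Lib.Fusion.Basic Cfsg.Agent.Lib.Fusion.GroupSystem Cfsg.Agent.Lib.FusionExt.Invariant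
open Cfsg.Agent.Lib.Fusion.Saturation Cfsg.Agent.Lib.Fusion.Saturation2
open Cfsg.Agent.Lib.FusionExt.Normal Cfsg.Agent.Lib.FusionExt.PIndex Cfsg.Agent.Lib.Transfer.Basic
open Cfsg.Agent.Lib.FusionExt.GroupNormal2 Cfsg.Agent.Lib.FusionExt.Basic
open Cfsg.Agent.Lib.FusionExt.Normal2 Cfsg.Agent.Lib.FusionExt.Constrained

section abstractGroup

variable {X : Type*} [Group X] [Finite X] {p : ℕ} [Fact p.Prime]

/-- The covering argument: `A` normalizes `B`, a Sylow subgroup of `A` lies in `B`, and each element of `A` is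
an element of `B` times a `p`-element. Then `A ≤ B`. -/
theorem le_of_sylow_of_cover {A B U : Subgroup X} (hUA : IsSylowIn p U A) (hUB : U ≤ B)
    (hAB : A ≤ normalizer (B : Set X)) (hcov : ∀ a ∈ A, ∃ b ∈ B, ∃ k : ℕ, (b⁻¹ * a) ^ p ^ k = 1) : A ≤ B := by
  intro a ha
  obtain ⟨a₁, a₂, hab, -, ha₁, ha₂, ⟨k, hk⟩, ha₂c⟩ := exists_pPart_decomp (p := p) a
  have hz : zpowers a ≤ A := zpowers_le.2 ha
  have h1 : a₁ ∈ B := by
    have hR : IsPGroup p (zpowers a₁) := by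
      rintro ⟨y, j, rfl⟩
      refine ⟨k, Subtype.ext ?_⟩
      show (a₁ ^ j) ^ p ^ k = 1
      rw [← zpow_natCast, ← zpow_mul, mul_comm, zpow_mul, zpow_natCast, hk, one_zpow]
    obtain ⟨c, hc, hcv⟩ := hUA.exists_conj (zpowers_le.2 (hz ha₁)) hR
    have h2 := hUB (hcv a₁ (mem_zpowers a₁))
    have h3 := (mem_normalizer_iff.1 (hAB (Subgroup.inv_mem _ hc)) _).1 h2
    have e : c⁻¹ * (c * a₁ * c⁻¹) * c⁻¹⁻¹ = a₁ := by group
    rwa [e] at h3
  have h2 : a₂ ∈ B := by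
    obtain ⟨b, hb, m, hm⟩ := hcov a₂ (hz ha₂)
    set κ := b⁻¹ * a₂ with hκ
    have hκN : κ ∈ normalizer (B : Set X) :=
      mul_mem (Subgroup.inv_mem _ (Subgroup.le_normalizer hb)) (hAB (hz ha₂))
    have hstep : ∀ n : ℕ, ∃ b' ∈ B, (b * κ) ^ n = b' * κ ^ n := by
      intro n
      induction n with
      | zero => exact ⟨1, Subgroup.one_mem _, by simp⟩
      | succ n ih =>
        obtain ⟨b', hb', e⟩ := ih
        have h3 : κ ^ n * b * (κ ^ n)⁻¹ ∈ B :=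
          (mem_normalizer_iff.1 (Subgroup.pow_mem _ hκN n) b).1 hb
        refine ⟨b' * (κ ^ n * b * (κ ^ n)⁻¹), Subgroup.mul_mem _ hb' h3, ?_⟩
        rw [pow_succ, e, pow_succ]
        group
    obtain ⟨b', hb', e⟩ := hstep (orderOf a₂)
    have e2 : b * κ = a₂ := by rw [hκ]; group
    rw [e2, pow_orderOf_eq_one] at e
    have h3 : κ ^ orderOf a₂ ∈ B := by
      have : κ ^ orderOf a₂ = b'⁻¹ := by
        rw [eq_comm, inv_eq_iff_mul_eq_one]
        exact e.symm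
      rw [this]
      exact Subgroup.inv_mem _ hb'
    have h4 : κ ∈ B := mem_of_pow_mem_of_coprime h3 hm ha₂c
    rw [← e2]
    exact Subgroup.mul_mem _ hb h4
  rw [hab]
  exact Subgroup.mul_mem _ h1 h2

end abstractGroup

section normalInf

variable {Ω : Type*} [Group Ω] {S T Q : Subgroup Ω} [Finite S] {p : ℕ} [Fact p.Prime]

/-- If `Q` is normal in `F`, then `T ∩ Q` is normal in each saturated subsystem over a strongly closed `T`. -/
theorem isNormal_inf_of_isNormal (hS : IsPGroup p S) {F : FusionSystem S} (hQ : F.IsNormal Q) (E : FusionSystem T)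
    (hEs : E.IsSaturated p) (hE : E.IsSubsystemOf F) (hT : F.StronglyClosed T) : E.IsNormal (T ⊓ Q) := by
  have hQS := hQ.1
  have hTS : T ≤ S := hT.1
  have hTp : IsPGroup p T := hS.to_le hTS
  have hTfin : Finite T := finite_of_le hTS
  have hscQ := isNormal_stronglyClosed F hQ
  have hsc0 : F.StronglyClosed (T ⊓ Q) := Cfsg.Agent.Lib.FusionExt.Solvable.stronglyClosed_inf F hT hscQ
  have hEsc : E.StronglyClosed (T ⊓ Q) := by
    refine ⟨inf_le_left, fun R hR φ hφ x => ?_⟩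
    exact hsc0.2 R hR φ (hE R hφ) x
  refine (isNormal_iff E hTp hEs).2 ⟨hEsc, fun R hRc hRr => ?_⟩
  have hRT : R ≤ T := hRc.1
  have hRS : R ≤ S := hRT.trans hTS
  refine le_of_forall_normalizer_le hTp inf_le_left hRT (hRT.trans (sc_le_normalizer E hEsc)) fun x hx hxN => ?_
  refine mem_of_radical E hRc hRr (autInducedBy (R ⊔ Q) R ⊓ E.autGroup R) inf_le_right ?_ ?_ hx.1 hxN ⟨?_, ?_⟩
  · rintro γ hγ α ⟨hα, hα'⟩
    refine ⟨autInducedBy_sup_conj F hQ hRS (autGroup_le_of_subsystem hE hRT hγ) hα,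
      Subgroup.mul_mem _ (Subgroup.mul_mem _ hγ hα') (Subgroup.inv_mem _ hγ)⟩
  · rintro α ⟨hα, -⟩
    have hU : IsPGroup p ↥(R ⊔ Q) := hS.to_le (sup_le hRS hQS)
    obtain ⟨k, hk⟩ := isPGroup_autInducedBy R hU ⟨α, hα⟩
    exact ⟨k, congrArg Subtype.val hk⟩
  · exact normAct_mem_autInducedBy _ R hxN (Subgroup.mem_sup_right hx.2)
  · exact autInducedBy_le_autGroup E hRT (normAct_mem_autInducedBy T R hxN hx.1)

end normalInf

variable {G : Type*} [Group G] [Finite G] {p : ℕ} [Fact p.Prime] {S : Sylow p G} {T : Subgroup G}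
  {E : FusionSystem T}

theorem isNormal_core (S : Sylow p G) : (groupFusionSystem (S : Subgroup G)).IsNormal (pCore p G) := by
  refine ⟨core_le S, fun P φ hφ => ?_⟩
  obtain ⟨hP, hv, g, hg⟩ := hφ
  have hval : ∀ x : ↥(P ⊔ pCore p G), conjHom (P ⊔ pCore p G) g x ∈ (S : Subgroup G) := by
    apply mem_of_sup
    · intro a ha
      have := hv ⟨a, ha⟩
      rw [hg] at this
      exact this
    · intro b hb
      exact core_le S (core_normal.conj_mem b hb g)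
  refine ⟨conjHom _ g, ⟨sup_le hP (core_le S), hval, g, fun _ => rfl⟩, fun x => (hg x).symm, ?_⟩
  apply le_antisymm
  · rintro _ ⟨x, hx, rfl⟩
    exact core_normal.conj_mem _ hx g
  · intro y hy
    have h1 := core_normal.conj_mem y hy g⁻¹
    rw [inv_inv] at h1
    refine ⟨⟨_, Subgroup.mem_sup_right h1⟩, h1, ?_⟩
    show g * (g⁻¹ * y * g) * g⁻¹ = y
    group

theorem stronglyClosed_of_SC (h : SC S T) : (groupFusionSystem (S : Subgroup G)).StronglyClosed T := by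
  refine ⟨h.le, fun R hR φ hφ x => ?_⟩
  obtain ⟨-, hv, g, hg⟩ := hφ
  have := hv x
  rw [hg] at this ⊢
  exact h.conj _ (hR x.2) g this

/-- `T ∩ O_p(G)` is normal in each saturated subsystem over `T`. -/
theorem isNormal_Q0 (h : SC S T) (E₁ : FusionSystem T) (hs : E₁.IsSaturated p)
    (hsub : E₁.IsSubsystemOf (groupFusionSystem (S : Subgroup G))) : E₁.IsNormal (Q0 p T) :=
  isNormal_inf_of_isNormal S.isPGroup' (isNormal_core S) E₁ hs hsub (stronglyClosed_of_SC h)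

/-- `O^p(N₀)`, as a subgroup of `G`. -/
noncomputable def Res (h : SC S T) (E : FusionSystem T) : Subgroup G :=
  (pResidual p ↥(N0 h E)).map (N0 h E).subtype

/-- The subgroup `O^p(N₀) T`. -/
noncomputable def HH (h : SC S T) (E : FusionSystem T) : Subgroup G := Res h E ⊔ T

section ctx

variable (hc : Ctx S E)
include hc

theorem Res_normal : (Res hc.sc E).Normal := by
  haveI := hc.N0_normal
  exact map_subtype_normal_of_characteristic (N0 hc.sc E) _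

theorem Res_le : Res hc.sc E ≤ N0 hc.sc E := by
  rintro _ ⟨x, -, rfl⟩
  exact x.2

theorem HH_le : HH hc.sc E ≤ N0 hc.sc E := sup_le (Res_le hc) hc.T_le_N0

omit hc in
theorem T_le_HH (h : SC S T) : T ≤ HH h E := le_sup_right

theorem exists_sylow_N0 : ∃ R : Sylow p ↥(N0 hc.sc E), (R : Subgroup ↥(N0 hc.sc E)) =
    ((S : Subgroup G) ⊓ N0 hc.sc E).subgroupOf (N0 hc.sc E) := by
  haveI := hc.N0_normal
  exact isSylowIn_inf S (N0 hc.sc E)

theorem res_inf_S {r : G} (hr : r ∈ Res hc.sc E) (hS : r ∈ (S : Subgroup G)) : r ∈ T := by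
  obtain ⟨R, hR⟩ := exists_sylow_N0 hc
  obtain ⟨r', hr', rfl⟩ := hr
  have hr'R : r' ∈ (R : Subgroup ↥(N0 hc.sc E)) := by
    rw [hR]
    exact ⟨hS, r'.2⟩
  have h1 : r' ∈ (groupFusionSystem (R : Subgroup ↥(N0 hc.sc E))).hyperfocalSubgroup p := by
    rw [Cfsg.Agent.Lib.FusionExt.HyperfocalGroup.hyperfocal_eq]
    exact ⟨hr'R, hr'⟩
  have hle : (groupFusionSystem (R : Subgroup ↥(N0 hc.sc E))).hyperfocalSubgroup p ≤ T.subgroupOf (N0 hc.sc E) := by
    refine (Subgroup.closure_le _).2 ?_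
    rintro y ⟨P, α, x, hP, -, rfl⟩
    obtain ⟨g, hg⟩ := (conj_aut_iff hP (α : MulAut P)).1 α.2
    have hxR : ((x : ↥(N0 hc.sc E)) : G) ∈ (S : Subgroup G) := by
      have := hP x.2
      rw [hR] at this
      exact this.1
    have hyR : (g * (x : ↥(N0 hc.sc E)) * g⁻¹ : ↥(N0 hc.sc E)) ∈ (R : Subgroup ↥(N0 hc.sc E)) := by
      rw [← hg x]
      exact hP ((α : MulAut P) x).2
    have hyS : (g : G) * ((x : ↥(N0 hc.sc E)) : G) * (g : G)⁻¹ ∈ (S : Subgroup G) := by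
      rw [hR] at hyR
      exact hyR.1
    have h2 := hc.focal_mem g.2 (x : ↥(N0 hc.sc E)).2 hxR hyS
    show ((((x : ↥(N0 hc.sc E))⁻¹ * (((α : MulAut P) x : P) : ↥(N0 hc.sc E))) : ↥(N0 hc.sc E)) : G) ∈ T
    rw [hg x]
    exact h2
  exact hle h1

theorem HH_inf_S {x : G} (hx : x ∈ HH hc.sc E) (hS : x ∈ (S : Subgroup G)) : x ∈ T := by
  have hN : T ≤ normalizer (Res hc.sc E : Set G) := fun t _ => mem_normalizer_of_normal (Res_normal hc) t
  have hx' : x ∈ T ⊔ Res hc.sc E := by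
    rw [sup_comm]
    exact hx
  obtain ⟨t, ht, r, hr, rfl⟩ := exists_mul_of_mem_sup' hN hx'
  have hrS : r ∈ (S : Subgroup G) := by
    have e : r = t⁻¹ * (t * r) := by group
    rw [e]
    exact Subgroup.mul_mem _ (Subgroup.inv_mem _ (hc.sc.le ht)) hS
  exact Subgroup.mul_mem _ ht (res_inf_S hc hr hrS)

theorem N0_decomp {n : G} (hn : n ∈ N0 hc.sc E) :
    ∃ w ∈ N0 hc.sc E, w ∈ (S : Subgroup G) ∧ ∃ r ∈ Res hc.sc E, n = w * r := by
  obtain ⟨R, hR⟩ := exists_sylow_N0 hc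
  have htop := sylow_sup_pResidual R
  have hN : (R : Subgroup ↥(N0 hc.sc E)) ≤ normalizer (pResidual p ↥(N0 hc.sc E) : Set ↥(N0 hc.sc E)) :=
    fun t _ => mem_normalizer_of_normal (pResidual_normal p) t
  have hmem : (⟨n, hn⟩ : ↥(N0 hc.sc E)) ∈ (R : Subgroup ↥(N0 hc.sc E)) ⊔ pResidual p ↥(N0 hc.sc E) := by
    rw [htop]
    exact mem_top _
  obtain ⟨a, ha, b, hb, e⟩ := exists_mul_of_mem_sup' hN hmem
  refine ⟨a, a.2, ?_, b, ⟨b, hb, rfl⟩, congrArg Subtype.val e⟩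
  rw [hR] at ha
  exact ha.1

theorem exists_HH {a : MulAut (Q0 p T)} (ha : a ∈ E.autGroup (Q0 p T)) :
    ∃ h ∈ HH hc.sc E, kap hc.sc h = a := by
  obtain ⟨n, hn, rfl⟩ := hc.exists_N0 ha
  obtain ⟨w, hw, hwS, r, hr, rfl⟩ := N0_decomp hc hn
  obtain ⟨t, ht, hz⟩ := hc.W_decomp hw hwS
  refine ⟨t * r, Subgroup.mul_mem _ (T_le_HH hc.sc ht) (Subgroup.mem_sup_left hr), ?_⟩
  have h1 := (kap_eq_one_iff hc.sc).2 hz.2
  rw [map_mul, map_inv, inv_mul_eq_one] at h1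
  rw [map_mul, map_mul, h1]

theorem HH_inf_CC {x : G} (hx : x ∈ HH hc.sc E) (hC : x ∈ CC p T) : x ∈ Z0 p T := by
  have h1 : x ∈ RR p T := (NN_inf_CC_le hc.sc) ⟨(HH_le hc hx).1, hC⟩
  have h2 := HH_inf_S hc hx (core_le S h1.2)
  exact mem_Z0_of_CC hc.sc h2 hC

theorem conj_T_mem_HH (g : G) {t : G} (ht : t ∈ T) : g * t * g⁻¹ ∈ HH hc.sc E := by
  have hsc := hc.sc
  haveI := hc.N0_normal
  have hsyl : IsSylowIn p ((S : Subgroup G) ⊓ N0 hsc E) (N0 hsc E) := isSylowIn_inf S (N0 hsc E)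
  let C : Subgroup G := ((S : Subgroup G) ⊓ N0 hsc E).map (MulAut.conj g).toMonoidHom
  have hCp : IsPGroup p C := (S.isPGroup'.to_le inf_le_left).map _
  have hCN : C ≤ N0 hsc E := by
    rintro _ ⟨w, hw, rfl⟩
    exact hc.N0_normal.conj_mem w hw.2 g
  obtain ⟨b, hb, hbv⟩ := hsyl.exists_conj hCN hCp
  have h1 : b * (g * t * g⁻¹) * b⁻¹ ∈ (S : Subgroup G) ⊓ N0 hsc E :=
    hbv _ ⟨t, Subgroup.mem_inf.2 ⟨hsc.le ht, hc.T_le_N0 ht⟩, rfl⟩
  have h2 : (b * g) * t * (b * g)⁻¹ ∈ T := by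
    refine hsc.conj t ht _ ?_
    have e : (b * g) * t * (b * g)⁻¹ = b * (g * t * g⁻¹) * b⁻¹ := by group
    rw [e]
    exact h1.1
  set t' := (b * g) * t * (b * g)⁻¹ with ht'
  have e : g * t * g⁻¹ = b⁻¹ * t' * b⁻¹⁻¹ := by
    rw [ht']
    group
  rw [e]
  obtain ⟨w, hw, hwS, r, hr, hbr⟩ := N0_decomp hc (Subgroup.inv_mem _ hb)
  rw [hbr]
  have e2 : (w * r) * t' * (w * r)⁻¹ = (w * r * w⁻¹) * (w * t' * w⁻¹) * (w * r * w⁻¹)⁻¹ := by group
  rw [e2]
  have h3 : w * r * w⁻¹ ∈ HH hsc E := Subgroup.mem_sup_left ((Res_normal hc).conj_mem r hr w)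
  have h4 : w * t' * w⁻¹ ∈ HH hsc E := T_le_HH hsc (conj_of_S hsc hwS h2)
  exact Subgroup.mul_mem _ (Subgroup.mul_mem _ h3 h4) (Subgroup.inv_mem _ h3)

theorem HH_normal : (HH hc.sc E).Normal := by
  refine ⟨fun x hx g => ?_⟩
  have hle : HH hc.sc E ≤ (HH hc.sc E).comap (MulAut.conj g).toMonoidHom := by
    refine sup_le (fun r hr => ?_) (fun t ht => ?_)
    · exact Subgroup.mem_sup_left ((Res_normal hc).conj_mem r hr g)
    · exact conj_T_mem_HH hc g ht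
  exact hle hx

theorem HH_sylow : IsSylowIn p T (HH hc.sc E) := by
  haveI := HH_normal hc
  have h := isSylowIn_inf S (HH hc.sc E)
  have e : (S : Subgroup G) ⊓ HH hc.sc E = T :=
    le_antisymm (fun x hx => HH_inf_S hc hx.2 hx.1) (le_inf hc.sc.le (T_le_HH hc.sc))
  rwa [e] at h

omit hc in
/-- Two maps agreeing on `Q₀` differ by elements of `C`. -/
theorem comm_of_agree {P : Subgroup G} (hsc : SC S T) (hQP : Q0 p T ≤ P) {ψ : P →* G} {h : G}
    (hψ : ∀ q : P, (q : G) ∈ Q0 p T → ψ q = h * q * h⁻¹) (x : P) : (ψ x)⁻¹ * (h * x * h⁻¹) ∈ CC p T := by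
  rw [CC, mem_centralizer_iff]
  intro q hq
  have hq₁ : h⁻¹ * q * h ∈ Q0 p T := by
    have := (Q0_normal hsc).conj_mem q hq h⁻¹
    rwa [inv_inv] at this
  have e0 := hψ ⟨_, hQP hq₁⟩ hq₁
  have e1 : h * (h⁻¹ * q * h) * h⁻¹ = q := by group
  have hq₂ : (x : G) * (h⁻¹ * q * h) * (x : G)⁻¹ ∈ Q0 p T := (Q0_normal hsc).conj_mem _ hq₁ x
  have e2 := hψ ⟨_, hQP hq₂⟩ hq₂
  have e3 : (⟨(x : G) * (h⁻¹ * q * h) * (x : G)⁻¹, hQP hq₂⟩ : P) = x * ⟨_, hQP hq₁⟩ * x⁻¹ := rfl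
  rw [e3, map_mul, map_mul, map_inv, e0] at e2
  simp only [e1] at e2
  have e2' : ψ x * q * (ψ x)⁻¹ = h * ((x : G) * (h⁻¹ * q * h) * (x : G)⁻¹) * h⁻¹ := e2
  have e4 : h * ((x : G) * (h⁻¹ * q * h) * (x : G)⁻¹) * h⁻¹ = (h * x * h⁻¹) * q * (h * x * h⁻¹)⁻¹ := by group
  rw [e4] at e2'
  calc q * ((ψ x)⁻¹ * (h * x * h⁻¹)) = (ψ x)⁻¹ * ((ψ x * q * (ψ x)⁻¹) * (h * x * h⁻¹)) := by group
    _ = (ψ x)⁻¹ * (((h * x * h⁻¹) * q * (h * x * h⁻¹)⁻¹) * (h * x * h⁻¹)) := by rw [e2']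
    _ = (ψ x)⁻¹ * (h * x * h⁻¹) * q := by group

/-- (L2) -/
theorem ext_to {P : Subgroup G} (hQP : Q0 p T ≤ P) (hPT : P ≤ T) {h : G} (hk : kap hc.sc h ∈ E.autGroup (Q0 p T))
    (hv : ∀ x ∈ P, h * x * h⁻¹ ∈ T) : ∃ ψ ∈ E.Hom P, (∀ q : P, (q : G) ∈ Q0 p T → ψ q = h * q * h⁻¹) ∧
      ∀ x : P, (ψ x)⁻¹ * (h * x * h⁻¹) ∈ Z0 p T := by
  have hsc := hc.sc
  obtain ⟨-, hrec⟩ := hc.Q0_fa_rec
  have hφ : autHom (kap hsc h) ∈ E.Hom (Q0 p T) := autHom_mem E Q0_le_T hk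
  have hext : P ≤ extender T (Q0 p T) (autHom (kap hsc h)) := by
    intro x hx
    refine mem_extender_of _ (hPT hx) (mem_normalizer_of_normal (Q0_normal hsc) x) (hv x hx) fun q => ?_
    show h * ((x : G) * q * (x : G)⁻¹) * h⁻¹ = (h * x * h⁻¹) * (h * q * h⁻¹) * (h * x * h⁻¹)⁻¹
    group
  obtain ⟨ψ, hψ, hψv⟩ := IsReceptive.exists_extension E hrec hφ (autHom_range _) hext hQP
  have hψq : ∀ q : P, (q : G) ∈ Q0 p T → ψ q = h * q * h⁻¹ := fun q hq => hψv ⟨q, hq⟩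
  refine ⟨ψ, hψ, hψq, fun x => mem_Z0_of_CC hsc ?_ (comm_of_agree hsc hQP hψq x)⟩
  exact Subgroup.mul_mem _ (Subgroup.inv_mem _ (val_mem E hψ x)) (hv x x.2)

/-- (L3) -/
theorem exists_HH_of_hom {P : Subgroup G} (hQP : Q0 p T ≤ P) {ψ : P →* G} (hψ : ψ ∈ E.Hom P) :
    ∃ h ∈ HH hc.sc E, ∀ q : P, (q : G) ∈ Q0 p T → ψ q = h * q * h⁻¹ := by
  have hsc := hc.sc
  have hr1 := restrict_mem E hQP hψ
  have hrange : (ψ.comp (Subgroup.inclusion hQP)).range = Q0 p T := by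
    refine Subgroup.eq_of_le_of_card_ge ?_ (le_of_eq (card_range E hr1).symm)
    rintro _ ⟨x, rfl⟩
    exact hc.map_Q0 hψ _ x.2
  obtain ⟨a, ha, hav⟩ := exists_aut_of_range E hr1 hrange
  obtain ⟨h, hh, rfl⟩ := exists_HH hc ha
  refine ⟨h, hh, fun q hq => ?_⟩
  have := hav ⟨q, hq⟩
  rw [kap_apply] at this
  exact this.symm

/-- The fusion system of `HH` on `T`. -/
theorem E'_sat : (fusionSystemOfSubgroup (HH hc.sc E) T (T_le_HH hc.sc)).IsSaturated p :=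
  isSaturated_ofSubgroup (T_le_HH hc.sc) (HH_sylow hc)

theorem isConj_left {P P' : Subgroup G} (hQP : Q0 p T ≤ P) (hconj : E.IsConj P P') :
    (fusionSystemOfSubgroup (HH hc.sc E) T (T_le_HH hc.sc)).IsConj P P' := by
  have hsc := hc.sc
  obtain ⟨ψ, hψ, rfl⟩ := hconj
  have hPT : P ≤ T := le_of_mem E hψ
  obtain ⟨h, hh, hq⟩ := exists_HH_of_hom hc hQP hψ
  have hQr : Q0 p T ≤ ψ.range := by
    intro q hq'
    have h1 := (Q0_normal hsc).conj_mem q hq' h⁻¹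
    rw [inv_inv] at h1
    refine ⟨⟨_, hQP h1⟩, ?_⟩
    rw [hq _ h1]
    show h * (h⁻¹ * q * h) * h⁻¹ = q
    group
  have hval : ∀ x : P, h * x * h⁻¹ ∈ ψ.range := by
    intro x
    have h1 := comm_of_agree hsc hQP hq x
    have h2 : (ψ x)⁻¹ * (h * x * h⁻¹) ∈ HH hsc E :=
      Subgroup.mul_mem _ (Subgroup.inv_mem _ (T_le_HH hsc (val_mem E hψ x)))
        (Subgroup.mul_mem _ (Subgroup.mul_mem _ hh (T_le_HH hsc (hPT x.2))) (Subgroup.inv_mem _ hh))
    have h3 := HH_inf_CC hc h2 h1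
    have e : h * x * h⁻¹ = ψ x * ((ψ x)⁻¹ * (h * x * h⁻¹)) := by group
    rw [e]
    exact Subgroup.mul_mem _ ⟨x, rfl⟩ (hQr h3.1)
  have hrT : ψ.range ≤ T := range_le E hψ
  have hφ : conjHom P h ∈ (fusionSystemOfSubgroup (HH hc.sc E) T (T_le_HH hc.sc)).Hom P :=
    ⟨hPT, fun x => hrT (hval x), h, hh, fun _ => rfl⟩
  refine ⟨conjHom P h, hφ, ?_⟩
  refine Subgroup.eq_of_le_of_card_ge ?_ ?_
  · rintro _ ⟨x, rfl⟩
    exact hval x
  · rw [card_range _ hφ, card_range E hψ]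

theorem HH_le_G0 : HH hc.sc E ≤ G0 hc.sc E := (HH_le hc).trans inf_le_right

theorem isConj_right {P P' : Subgroup G} (hQP : Q0 p T ≤ P)
    (hconj : (fusionSystemOfSubgroup (HH hc.sc E) T (T_le_HH hc.sc)).IsConj P P') : E.IsConj P P' := by
  have hsc := hc.sc
  obtain ⟨φ, ⟨hPT, hv, h, hh, hφ⟩, rfl⟩ := hconj
  have hv' : ∀ x ∈ P, h * x * h⁻¹ ∈ T := fun x hx => by
    have := hv ⟨x, hx⟩
    rwa [hφ] at this
  obtain ⟨ψ, hψ, hq, hz⟩ := ext_to hc hQP hPT (HH_le_G0 hc hh) hv'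
  have hQr : Q0 p T ≤ φ.range := by
    intro q hq'
    have h1 := (Q0_normal hsc).conj_mem q hq' h⁻¹
    rw [inv_inv] at h1
    refine ⟨⟨_, hQP h1⟩, ?_⟩
    rw [hφ]
    show h * (h⁻¹ * q * h) * h⁻¹ = q
    group
  refine ⟨ψ, hψ, ?_⟩
  refine Subgroup.eq_of_le_of_card_ge ?_ ?_
  · rintro _ ⟨x, rfl⟩
    have h1 := hz x
    have e : ψ x = (h * x * h⁻¹) * ((ψ x)⁻¹ * (h * x * h⁻¹))⁻¹ := by group
    rw [e]
    refine Subgroup.mul_mem _ ⟨x, (hφ x)⟩ (Subgroup.inv_mem _ (hQr h1.1))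
  · have hinj : Function.Injective φ := by
      intro a b hab
      rw [hφ, hφ] at hab
      exact Subtype.ext (mul_left_cancel (mul_right_cancel hab))
    rw [card_range E hψ]
    exact le_of_eq (Nat.card_congr (MonoidHom.ofInjective hinj).toEquiv).symm

/-- (D3) -/
theorem autGroup_eq {P : Subgroup G} (hQP : Q0 p T ≤ P) (hfn : E.IsFullyNormalized P) :
    E.autGroup P = (fusionSystemOfSubgroup (HH hc.sc E) T (T_le_HH hc.sc)).autGroup P := by
  have hsc := hc.sc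
  have hPT : P ≤ T := hfn.1
  set E' := fusionSystemOfSubgroup (HH hc.sc E) T (T_le_HH hc.sc) with hE'
  have hfn' : E'.IsFullyNormalized P := ⟨hPT, fun P' h => hfn.2 P' (isConj_right hc hQP h)⟩
  have hTp := hc.T_isP
  have hfa : E.IsFullyAutomized p P := isFullyAutomized_of_isFullyNormalized E hTp hc.sat hfn
  have hfa' : E'.IsFullyAutomized p P := isFullyAutomized_of_isFullyNormalized E' hTp (E'_sat hc) hfn'
  have hUA : autInducedBy T P ≤ E.autGroup P := autInducedBy_le_autGroup E hPT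
  have hUB : autInducedBy T P ≤ E'.autGroup P := autInducedBy_le_autGroup E' hPT
  have hb_iff : ∀ b : MulAut P, b ∈ E'.autGroup P ↔ ∃ h ∈ HH hsc E, ∀ x : P, ((b x : P) : G) = h * x * h⁻¹ := by
    intro b
    exact mem_autGroup_ofSubgroup (T_le_HH hsc) hPT b
  have hPS : P ≤ (S : Subgroup G) := hPT.trans hsc.le
  haveI := HH_normal hc
  -- `Aut_E(P)` normalizes `Aut_{E'}(P)`
  have hAB : E.autGroup P ≤ normalizer (E'.autGroup P : Set (MulAut P)) := by
    intro a ha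
    refine mem_normalizer_of_conj_le' fun b hb => ?_
    obtain ⟨g, hg⟩ := hc.hom_conj (autHom_mem E hPT ha)
    have hgv : ∀ x : P, ((a x : P) : G) = g * x * g⁻¹ := hg
    have hgN := mem_normalizer_of_conj P a g hgv
    have hae : a = normAct P hgN := by
      ext x
      rw [hgv, normAct_apply]
    obtain ⟨h, hh, hhv⟩ := (hb_iff b).1 hb
    refine (hb_iff _).2 ⟨g * h * g⁻¹, (HH_normal hc).conj_mem h hh g, fun x => ?_⟩
    rw [MulAut.mul_apply, MulAut.mul_apply, hgv, hhv]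
    have hainv : ((a⁻¹ x : P) : G) = g⁻¹ * x * g := by
      rw [hae]
      exact normAct_inv_apply hgN x
    rw [hainv]
    group
  -- `Aut_{E'}(P)` normalizes `Aut_E(P)`
  have hBA : E'.autGroup P ≤ normalizer (E.autGroup P : Set (MulAut P)) := by
    intro b hb
    refine mem_normalizer_of_conj_le' fun a ha => ?_
    obtain ⟨h, hh, hhv⟩ := (hb_iff b).1 hb
    have hN := mem_normalizer_of_conj P b h hhv
    have hFhom : conjHom P h ∈ (groupFusionSystem (S : Subgroup G)).Hom P := by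
      refine ⟨hPS, fun x => hPS ?_, h, fun x => rfl⟩
      show h * (x : G) * h⁻¹ ∈ P
      exact (mem_normalizer_iff.1 hN x).1 x.2
    have hrange : (conjHom P h).range = P := by
      apply le_antisymm
      · rintro _ ⟨x, rfl⟩
        exact (mem_normalizer_iff.1 hN x).1 x.2
      · intro y hy
        have h1 := (mem_normalizer_iff.1 (Subgroup.inv_mem _ hN) y).1 hy
        refine ⟨⟨_, h1⟩, ?_⟩
        show h * (h⁻¹ * y * h⁻¹⁻¹) * h⁻¹ = y
        group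
    have hbe : b = normAct P hN := by
      ext x
      rw [hhv, normAct_apply]
    refine strong_conj_aut hc.inv hPT hFhom hrange ha _ fun x hx => ?_
    have e : (⟨conjHom P h x, hx⟩ : P) = b x := by
      apply Subtype.ext
      rw [hhv]
      rfl
    rw [e]
    simp only [MulAut.mul_apply, MulAut.inv_apply_self]
    rw [hhv]
    rfl
  apply le_antisymm
  · refine le_of_sylow_of_cover hfa.2 hUB hAB fun a ha => ?_
    obtain ⟨h, hh, hq⟩ := exists_HH_of_hom hc hQP (autHom_mem E hPT ha)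
    have hz := fun x : P => comm_of_agree hsc hQP hq x
    have hmem : ∀ x : P, h * x * h⁻¹ ∈ P := by
      intro x
      have h2 : ((autHom a) x)⁻¹ * (h * x * h⁻¹) ∈ HH hsc E :=
        Subgroup.mul_mem _ (Subgroup.inv_mem _ (T_le_HH hsc (hPT (a x).2)))
          (Subgroup.mul_mem _ (Subgroup.mul_mem _ hh (T_le_HH hsc (hPT x.2))) (Subgroup.inv_mem _ hh))
      have h3 := HH_inf_CC hc h2 (hz x)
      have e : h * x * h⁻¹ = (autHom a) x * ((autHom a x)⁻¹ * (h * x * h⁻¹)) := by group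
      rw [e]
      exact Subgroup.mul_mem _ (a x).2 (hQP h3.1)
    have hN : h ∈ normalizer (P : Set G) := mem_normalizer_of_conj_le' fun x hx => hmem ⟨x, hx⟩
    refine ⟨normAct P hN, (hb_iff _).2 ⟨h, hh, fun x => rfl⟩, ?_⟩
    refine hc.triv_pEl hQP hPT _ fun q hq' => ?_
    rw [MulAut.mul_apply]
    have e1 : a q = normAct P hN q := by
      apply Subtype.ext
      rw [normAct_apply]
      exact hq q hq'
    rw [e1]
    simp
  · refine le_of_sylow_of_cover hfa'.2 hUA hBA fun b hb => ?_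
    obtain ⟨h, hh, hhv⟩ := (hb_iff b).1 hb
    have hN := mem_normalizer_of_conj P b h hhv
    obtain ⟨ψ, hψ, hq, hz⟩ := ext_to hc hQP hPT (HH_le_G0 hc hh) (fun x hx => hPT ((mem_normalizer_iff.1 hN x).1 hx))
    have hr : ψ.range = P := by
      refine Subgroup.eq_of_le_of_card_ge ?_ (le_of_eq (card_range E hψ).symm)
      rintro _ ⟨x, rfl⟩
      have h1 := hz x
      have e : ψ x = (h * x * h⁻¹) * ((ψ x)⁻¹ * (h * x * h⁻¹))⁻¹ := by group
      rw [e]
      exact Subgroup.mul_mem _ ((mem_normalizer_iff.1 hN x).1 x.2) (Subgroup.inv_mem _ (hQP h1.1))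
    obtain ⟨a, ha, hav⟩ := exists_aut_of_range E hψ hr
    refine ⟨a, ha, hc.triv_pEl hQP hPT _ fun q hq' => ?_⟩
    rw [MulAut.mul_apply]
    have e1 : b q = a q := by
      apply Subtype.ext
      rw [hhv, hav, hq q hq']
    rw [e1]
    simp

/-- (D5) -/
theorem hom_eq (P : Subgroup G) : E.Hom P = (fusionSystemOfSubgroup (HH hc.sc E) T (T_le_HH hc.sc)).Hom P := by
  have hsc := hc.sc
  have hTp := hc.T_isP
  set E' := fusionSystemOfSubgroup (HH hc.sc E) T (T_le_HH hc.sc) with hE'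
  have hs' : E'.IsSaturated p := E'_sat hc
  have hsub' : E'.IsSubsystemOf (groupFusionSystem (S : Subgroup G)) := by
    rintro Q φ ⟨hQ, hφ, g, -, hg⟩
    exact ⟨hQ.trans hsc.le, fun x => hsc.le (hφ x), g, hg⟩
  have hn := isNormal_Q0 hsc E hc.sat hc.sub
  have hn' := isNormal_Q0 hsc E' hs' hsub'
  apply Set.Subset.antisymm
  · refine Cfsg.Agent.Lib.Fusion.Alperin.alperin_goldschmidt E hTp hc.sat E' (fun Q hQ => ?_) P
    rcases hQ with rfl | hQ
    · exact (autGroup_eq hc Q0_le_T (isFullyNormalized_top E hTp)).le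
    · have hr := Cfsg.Agent.Lib.Fusion.Alperin.isRadical_of_isEssential E hTp hQ
      have hle := isNormal_le_of_isCentric_isRadical E hTp hn hQ.1 hr
      exact (autGroup_eq hc hle hQ.2.1).le
  · refine Cfsg.Agent.Lib.Fusion.Alperin.alperin_goldschmidt E' hTp hs' E (fun Q hQ => ?_) P
    rcases hQ with rfl | hQ
    · exact (autGroup_eq hc Q0_le_T (isFullyNormalized_top E hTp)).ge
    · have hr := Cfsg.Agent.Lib.Fusion.Alperin.isRadical_of_isEssential E' hTp hQ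
      have hle := isNormal_le_of_isCentric_isRadical E' hTp hn' hQ.1 hr
      have hfn : E.IsFullyNormalized Q := ⟨hQ.2.1.1, fun Q' h => hQ.2.1.2 Q' (isConj_left hc hle h)⟩
      exact (autGroup_eq hc hle hfn).ge

/-- Uniqueness. -/
theorem eq_HH {H' : Subgroup G} (hTH' : T ≤ H') (hN : H'.Normal) (hsyl : IsSylowIn p T H')
    (hhom : ∀ P : Subgroup G, E.Hom P = (fusionSystemOfSubgroup H' T hTH').Hom P) : H' = HH hc.sc E := by
  have hsc := hc.sc
  have hS' : ∀ x ∈ H', x ∈ (S : Subgroup G) → x ∈ T := by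
    intro x hx hxS
    have hmax := ((isSylowIn_iff_maximal hTH').1 hsyl).2 (H' ⊓ (S : Subgroup G)) inf_le_left
      (S.isPGroup'.to_le inf_le_right) (le_inf hTH' hsc.le)
    have : x ∈ H' ⊓ (S : Subgroup G) := ⟨hx, hxS⟩
    rwa [hmax] at this
  have hC' : ∀ x ∈ H', x ∈ CC p T → x ∈ Z0 p T := by
    intro x hx hxC
    have hL : (secCent (pCore p G) (Q0 p T) ⊓ CC p T).Normal :=
      inf_normal' (secCent_normal core_normal (Q0_normal hsc)) (CC_normal hsc)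
    have hle : secCent (pCore p G) (Q0 p T) ⊓ CC p T ≤ pCore p G := by
      refine le_pCore_of_stab hL pCore_isPGroup Q0_le_core (fun g hg a ha => hg.1.2.2 a ha) (fun g hg b hb => ?_)
        (fun g _ hg => core_pEl (hsc.cent hg))
      have := CC_comm hg.2 hb
      rw [← this]
      group
    have hxQ : x ∈ pCore p G := by
      refine hle ⟨⟨mem_normalizer_of_normal core_normal x, mem_normalizer_of_normal (Q0_normal hsc) x, fun a ha => ?_⟩, hxC⟩
      have h1 : a⁻¹ * (x * a * x⁻¹) ∈ H' := by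
        have e : a⁻¹ * (x * a * x⁻¹) = (a⁻¹ * x * a⁻¹⁻¹) * x⁻¹ := by group
        rw [e]
        exact Subgroup.mul_mem _ (hN.conj_mem x hx a⁻¹) (Subgroup.inv_mem _ hx)
      have h2 : a⁻¹ * (x * a * x⁻¹) ∈ pCore p G :=
        Subgroup.mul_mem _ (Subgroup.inv_mem _ ha) (core_normal.conj_mem a ha x)
      exact Subgroup.mem_inf.2 ⟨hS' _ h1 (core_le S h2), h2⟩
    exact mem_Z0_of_CC hsc (hS' x hx (core_le S hxQ)) hxC
  have hH'NN : H' ≤ NN p T := by
    intro h hh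
    refine ⟨mem_normalizer_of_normal (CC_normal hsc) h, mem_normalizer_of_normal (Z0_normal hsc) h, fun c hc' => ?_⟩
    refine hC' _ ?_ (Subgroup.mul_mem _ (Subgroup.inv_mem _ hc') ((CC_normal hsc).conj_mem c hc' h))
    have e : c⁻¹ * (h * c * h⁻¹) = (c⁻¹ * h * c⁻¹⁻¹) * h⁻¹ := by group
    rw [e]
    exact Subgroup.mul_mem _ (hN.conj_mem h hh c⁻¹) (Subgroup.inv_mem _ hh)
  have hH'G0 : H' ≤ G0 hsc E := by
    intro h hh
    show kap hsc h ∈ E.autGroup (Q0 p T)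
    have hφ : conjHom (Q0 p T) h ∈ E.Hom (Q0 p T) := by
      rw [hhom]
      exact ⟨Q0_le_T, fun x => Q0_le_T ((Q0_normal hsc).conj_mem _ x.2 h), h, hh, fun _ => rfl⟩
    exact mem_autGroup_of_hom E hφ _ fun x => rfl
  have hH'N0 : H' ≤ N0 hsc E := le_inf hH'NN hH'G0
  have hcover : ∀ n ∈ N0 hsc E, ∃ h ∈ H', h⁻¹ * n ∈ RR p T := by
    intro n hn
    have hφ : autHom (kap hsc n) ∈ E.Hom (Q0 p T) := autHom_mem E Q0_le_T hn.2
    rw [hhom] at hφ
    obtain ⟨-, -, h, hh, hv⟩ := hφ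
    refine ⟨h, hh, (NN_inf_CC_le hsc) ⟨mul_mem (Subgroup.inv_mem _ (hH'NN hh)) hn.1, ?_⟩⟩
    have hk : kap hsc h = kap hsc n := by
      ext x
      rw [kap_apply]
      exact (hv x).symm
    refine (kap_eq_one_iff hsc).1 ?_
    rw [map_mul, map_inv, hk]
    group
  -- `O^p(N₀) ≤ H'`
  have hRes : Res hsc E ≤ H' := by
    refine Subgroup.map_le_iff_le_comap.2 ((Subgroup.closure_le _).2 ?_)
    rintro x hx
    have hx' : Nat.Coprime (orderOf x) p := hx
    show (x : G) ∈ H'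
    obtain ⟨h, hh, hz⟩ := hcover x x.2
    set z := h⁻¹ * (x : G) with hzd
    have hxe : (x : G) = h * z := by rw [hzd]; group
    obtain ⟨k, hk⟩ := core_pEl (p := p) hz.2
    haveI := hN
    have hq : ((z : G) : G ⧸ H') ^ orderOf x = 1 := by
      have h1 : ((x : G) : G ⧸ H') = (z : G ⧸ H') := by
        rw [hxe, QuotientGroup.mk_mul, (QuotientGroup.eq_one_iff h).2 hh, one_mul]
      rw [← h1, ← QuotientGroup.mk_pow]
      have h2 : (x : G) ^ orderOf x = 1 := by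
        rw [← Subgroup.coe_pow, pow_orderOf_eq_one]
        rfl
      rw [h2]
      rfl
    have hzn : z ^ orderOf x ∈ H' := by
      exact (QuotientGroup.eq_one_iff _).1 (by rw [QuotientGroup.mk_pow]; exact hq)
    have hzH : z ∈ H' := mem_of_pow_mem_of_coprime hzn hk hx'
    rw [hxe]
    exact Subgroup.mul_mem _ hh hzH
  apply le_antisymm
  · intro h hh
    obtain ⟨w, hw, hwS, r, hr, e⟩ := N0_decomp hc (hH'N0 hh)
    have hwH : w ∈ H' := by
      have e2 : w = h * r⁻¹ := by rw [e]; group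
      rw [e2]
      exact Subgroup.mul_mem _ hh (Subgroup.inv_mem _ (hRes hr))
    rw [e]
    exact Subgroup.mul_mem _ (T_le_HH hsc (hS' w hwH hwS)) (Subgroup.mem_sup_left hr)
  · exact sup_le hRes hTH'

end ctx

/-- **S5121**. -/
theorem main {T : Subgroup G} (hG : Subgroup.centralizer ((pCore p G : Subgroup G) : Set G) ≤ pCore p G)
    (E : FusionSystem T) (hE : E.IsNormalIn (groupFusionSystem (S : Subgroup G)) p) :
    ∃ H : Subgroup G, (∃ hTH : T ≤ H, H.Normal ∧ (∃ R : Sylow p H, (R : Subgroup H) = T.subgroupOf H) ∧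
      ∀ P : Subgroup G, E.Hom P = (fusionSystemOfSubgroup H T hTH).Hom P) ∧
      ∀ H' : Subgroup G, (∃ hTH' : T ≤ H', H'.Normal ∧ (∃ R : Sylow p H', (R : Subgroup H') = T.subgroupOf H') ∧
        ∀ P : Subgroup G, E.Hom P = (fusionSystemOfSubgroup H' T hTH').Hom P) → H' = H := by
  have hc : Ctx S E := ctx_of_isNormalIn hE hG
  refine ⟨HH hc.sc E, ⟨T_le_HH hc.sc, HH_normal hc, HH_sylow hc, hom_eq hc⟩, ?_⟩
  rintro H' ⟨hTH', hN, hsyl, hhom⟩
  exact eq_HH hc hTH' hN hsyl hhom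

end Cfsg.Agent.Lib.FusionExt.GroupNormal3
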